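import Cfsg.Statements.S0354
import Cfsg.Agent.H1.Steiner

set_option autoImplicit false
open Cfsg

namespace Cfsg.Agent.S0354

/-- In an S(5, 8, 24), each block is disjoint from exactly 30 blocks. -/
theorem result {α : Type*} [Fintype α] [DecidableEq α] (hα : Fintype.card α = 24) {B : Set (Finset α)} (hB : Cfsg.IsSteinerSystem 5 8 B) {b : Finset α} (hb : b ∈ B) : {c : Finset α | c ∈ B ∧ Disjoint b c}.ncard = 30 := by
  have h1 := H1.cnt_in_block hB (by norm_num) hb (S := ∅) (T := b) (Finset.empty_subset _)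
    (Finset.Subset.refl _) (Finset.disjoint_empty_left _)
  rw [hα, hB.1 b hb, Finset.card_empty, H1.cnt_eq_ncard] at h1
  have h2 : H1.tri (H1.lamB 5 8 24) 0 8 = 30 := by decide
  rw [h2] at h1
  have h3 : {c : Finset α | c ∈ B ∧ Disjoint b c} = {c | c ∈ B ∧ ∅ ⊆ c ∧ Disjoint c b} := by
    ext c
    simp [disjoint_comm]
  rw [h3]
  exact_mod_cast h1

end Cfsg.Agent.S0354
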