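import Cfsg.Statements.S0357
import Cfsg.Agent.H1.Steiner

set_option autoImplicit false
open Cfsg

namespace Cfsg.Agent.S0357

/-- In a Steiner system S(5, 6, 12), the complement of every block is again a block. -/
theorem result {α : Type*} [Fintype α] [DecidableEq α] (hα : Fintype.card α = 12) {B : Set (Finset α)} (hB : Cfsg.IsSteinerSystem 5 6 B) {b : Finset α} (hb : b ∈ B) : bᶜ ∈ B := by
  have h1 := H1.cnt_in_block hB (by norm_num) hb (S := ∅) (T := b) (Finset.empty_subset _)
    (Finset.Subset.refl _) (Finset.disjoint_empty_left _)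
  rw [hα, hB.1 b hb, Finset.card_empty] at h1
  have h2 : H1.tri (H1.lamB 5 6 12) 0 6 = 1 := by decide
  rw [h2] at h1
  obtain ⟨c, hc, -, hcb⟩ := H1.cnt_pos_iff.mp (show 0 < H1.cnt B ∅ b by omega)
  have h3 : c = bᶜ := by
    apply Finset.eq_of_subset_of_card_le
    · exact Finset.subset_compl_iff_disjoint_right.mpr hcb
    · rw [Finset.card_compl, hα, hB.1 b hb, hB.1 c hc]
  exact h3 ▸ hc

end Cfsg.Agent.S0357
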