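import Cfsg.Statements.S0369
import Cfsg.Agent.H2.PermCode

set_option autoImplicit false
open Cfsg

namespace Cfsg.Agent.S0369

/-- The group of the length-24 code coincides with the automorphism group of its octad system. -/
theorem result : Cfsg.M24 = Cfsg.setSystemAut Cfsg.octads := by
  exact H2.M24_eq_octad_aut

end Cfsg.Agent.S0369
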