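import Cfsg.Statements.S0384
import Cfsg.Agent.H2.Simple

set_option autoImplicit false
open scoped Pointwise
open Cfsg

namespace Cfsg.Agent.S0384

/-- A dodecad stabiliser is sharply 5-transitive on the dodecad. -/
theorem result (d : Finset Cfsg.GolayPt) (hd : d ∈ Cfsg.dodecads) (x y : Fin 5 ↪ Cfsg.GolayPt) (hx : ∀ i, x i ∈ d) (hy : ∀ i, y i ∈ d) : ∃! g : MulAction.stabilizer Cfsg.M24 d, ∀ i, ((g : Cfsg.M24) : Equiv.Perm Cfsg.GolayPt) (x i) = y i := by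
  obtain ⟨g, hg, e⟩ := H2.M12_transOn hd x y x.injective y.injective hx hy
  refine ⟨⟨⟨g, hg.1⟩, hg.2⟩, e, fun k hk => ?_⟩
  have hk' : (k.1.1 : H2.P24) ∈ H2.stS d := ⟨k.1.2, k.2⟩
  have h1 : g⁻¹ * k.1.1 = 1 :=
    H2.M12_sharp hd x.injective hx (Subgroup.mul_mem _ (Subgroup.inv_mem _ hg) hk') fun i => by
      rw [mul_smul, inv_smul_eq_iff, e i]; exact hk i
  rw [inv_mul_eq_one] at h1
  exact Subtype.ext (Subtype.ext h1.symm)

end Cfsg.Agent.S0384
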