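import Cfsg.Statements.S0422
import Cfsg.Agent.MQ.Fin
import Cfsg.Agent.MQ.Fin2
import Cfsg.Agent.MQ.E3

set_option autoImplicit false
open Cfsg

namespace Cfsg.Agent.S0422

/-- Simple groups of order 244823040 are all isomorphic to the concrete largest Mathieu group. -/
theorem result {G : Type*} [Group G] [Finite G] (hG : Cfsg.IsM24 G) : Nonempty (G ≃* Cfsg.M24) := by
  obtain ⟨hS, hN⟩ := hG
  have := Fintype.ofFinite G
  exact MQ.final hN fun _ _ _ k L n12 n23 =>
    ⟨L.not_e73 n23 (MQ.d3s hN) k, L.not_e6 n12 n23 k⟩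

end Cfsg.Agent.S0422
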