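import Cfsg.Statements.S0427
import Cfsg.Agent.H1.S22

set_option autoImplicit false
open Cfsg

namespace Cfsg.Agent.S0427

/-- The block graph (adjacent = disjoint) of an S(3, 6, 22) is strongly regular with parameters (77, 16, 0, 4). -/
theorem result {α : Type*} [Fintype α] (hα : Fintype.card α = 22) {B : Set (Finset α)} (hB : Cfsg.IsSteinerSystem 3 6 B) [Fintype B] [DecidableRel (Cfsg.blockGraph B).Adj] : (Cfsg.blockGraph B).IsSRGWith 77 16 0 4 := by
  classical
  have hadj := H1.blockGraph_adj hB (by norm_num)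
  have hcn : ∀ b c : B, b ≠ c → Fintype.card ((Cfsg.blockGraph B).commonNeighbors b c) =
      if Disjoint (b : Finset α) c then 0 else 4 := by
    intro b c hbc
    rw [← H1.card_disjoint_both_22 hα hB b.2 c.2 (fun e => hbc (Subtype.ext e)),
      ← H1.card_filter_coe, ← Set.toFinset_card]
    congr 1
    ext d
    simp [SimpleGraph.mem_commonNeighbors, hadj, disjoint_comm]
  refine ⟨?_, ?_, ?_, ?_⟩
  · rw [← H1.card_blocks_22 hα hB, ← H1.ncard_eq_card_blocks, ← Set.toFinset_card,
      Set.ncard_eq_toFinset_card']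
  · intro b
    rw [← H1.card_disjoint_22 hα hB b.2, ← H1.card_filter_coe,
      ← SimpleGraph.card_neighborFinset_eq_degree]
    congr 1
    ext d
    simp [hadj, disjoint_comm]
  · intro b c h
    rw [hcn b c h.ne, if_pos ((hadj b c).mp h)]
  · intro b c hbc h
    rw [hcn b c hbc, if_neg (fun h' => h ((hadj b c).mpr h'))]

end Cfsg.Agent.S0427
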