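import Cfsg.Statements.S0428
import Cfsg.Agent.H1.HSGraph

set_option autoImplicit false
open Cfsg

namespace Cfsg.Agent.S0428

/-- The point-block graph of an S(3, 6, 22) is strongly regular with parameters (100, 22, 0, 6). -/
theorem result {α : Type*} [Fintype α] (hα : Fintype.card α = 22) {B : Set (Finset α)} (hB : Cfsg.IsSteinerSystem 3 6 B) [Fintype B] [DecidableRel (Cfsg.pointBlockGraph B).Adj] : (Cfsg.pointBlockGraph B).IsSRGWith 100 22 0 6 := by
  classical
  have hbb := H1.pb_bb hB (by norm_num)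
  have hcard : Fintype.card B = 77 := by
    rw [← H1.card_blocks_22 hα hB, ← H1.ncard_eq_card_blocks, ← Set.toFinset_card,
      Set.ncard_eq_toFinset_card']
  have hcn : ∀ v w, Fintype.card ((Cfsg.pointBlockGraph B).commonNeighbors v w) =
      (Finset.univ.filter fun u => (Cfsg.pointBlockGraph B).Adj v u ∧
        (Cfsg.pointBlockGraph B).Adj w u).card := by
    intro v w
    rw [← Set.toFinset_card]
    congr 1
    ext u
    simp [SimpleGraph.mem_commonNeighbors]
  have h1 : ∀ a : α, (Finset.univ.filter fun b : B => a ∈ (b : Finset α)).card = 21 := by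
    intro a
    rw [H1.card_filter_coe B (fun b => a ∈ b), ← H1.cnt_one_22 hα hB a, H1.cnt]
    simp
  have h2 : ∀ a a' : α, a ≠ a' →
      (Finset.univ.filter fun b : B => a ∈ (b : Finset α) ∧ a' ∈ (b : Finset α)).card = 5 := by
    intro a a' h
    have h3 := H1.cnt_pair_22 hα hB a a'
    rw [if_neg h] at h3
    rw [H1.card_filter_coe B (fun b => a ∈ b ∧ a' ∈ b), ← h3, H1.cnt]
    simp [Finset.insert_subset_iff]
  have h3 : ∀ b : B, (Finset.univ.filter fun d : B => Disjoint (b : Finset α) d).card = 16 := by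
    intro b
    rw [H1.card_filter_coe B (fun d => Disjoint (b : Finset α) d), ← H1.card_disjoint_22 hα hB b.2]
    simp only [disjoint_comm]
  have h4 : ∀ b c : B, b ≠ c → (Finset.univ.filter fun d : B => Disjoint (b : Finset α) d ∧
      Disjoint (c : Finset α) d).card = if Disjoint (b : Finset α) c then 0 else 4 := by
    intro b c hbc
    rw [H1.card_filter_coe B (fun d => Disjoint (b : Finset α) d ∧ Disjoint (c : Finset α) d),
      ← H1.card_disjoint_both_22 hα hB b.2 c.2 (fun e => hbc (Subtype.ext e))]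
    simp only [disjoint_comm]
  have h5 : ∀ (a : α) (b : B), (Finset.univ.filter fun d : B => a ∈ (d : Finset α) ∧
      Disjoint (b : Finset α) d).card = if a ∈ (b : Finset α) then 0 else 6 := by
    intro a b
    split_ifs with h
    · rw [Finset.card_eq_zero, Finset.filter_eq_empty_iff]
      intro d _ hd
      exact Finset.disjoint_left.mp hd.2 h hd.1
    · rw [H1.card_filter_coe B (fun d => a ∈ d ∧ Disjoint (b : Finset α) d),
        ← H1.card_mem_disjoint_22 hα hB b.2 h]
      simp only [disjoint_comm]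
  have h6 : ∀ b : B, (b : Finset α).card = 6 := fun b => hB.1 b b.2
  have h7 : ∀ b c : B, b ≠ c → (Finset.univ.filter fun a : α => a ∈ (b : Finset α) ∧
      a ∈ (c : Finset α)).card = if Disjoint (b : Finset α) c then 0 else 2 := by
    intro b c hbc
    have h8 : (Finset.univ.filter fun a : α => a ∈ (b : Finset α) ∧
      a ∈ (c : Finset α)) = (b : Finset α) ∩ c := by ext; simp
    rw [h8]
    split_ifs with h
    · rw [Finset.disjoint_iff_inter_eq_empty.mp h, Finset.card_empty]
    · rcases Cfsg.Agent.S0356.result hα hB b.2 c.2 (fun e => hbc (Subtype.ext e)) with h0 | h0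
      · exact absurd (Finset.disjoint_iff_inter_eq_empty.mpr (Finset.card_eq_zero.mp h0)) h
      · exact h0
  refine ⟨?_, ?_, ?_, ?_⟩
  · rw [Fintype.card_option, Fintype.card_sum, hα, hcard]
  · intro v
    rw [← SimpleGraph.card_neighborFinset_eq_degree, SimpleGraph.neighborFinset_eq_filter,
      H1.card_filter_option_sum]
    rcases v with _ | a | b
    · simp [H1.pb_np, H1.pb_nb, hα]
    · simp [H1.pb_pn, H1.pb_pp, H1.pb_pb, h1]
    · simp [H1.pb_bn, H1.pb_bp, hbb, h3, h6]
  · intro v w h
    rw [hcn, H1.card_filter_option_sum]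
    rcases v with _ | a | b <;> rcases w with _ | a' | b'
    · exact absurd h H1.pb_nn
    · simp [H1.pb_nb, H1.pb_pp]
    · exact absurd h (H1.pb_nb _)
    · simp [H1.pb_nb, H1.pb_pp]
    · exact absurd h (H1.pb_pp _ _)
    · rw [H1.pb_pb] at h
      simp [H1.pb_bn, H1.pb_pp, H1.pb_pb, hbb, h5, h]
    · exact absurd h (H1.pb_bn _)
    · rw [H1.pb_bp] at h
      have := h5 a' b
      simp only [and_comm] at this
      simp [H1.pb_bn, H1.pb_pp, H1.pb_pb, hbb, this, h]
    · have hne : b ≠ b' := fun e => h.ne (by rw [e])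
      rw [hbb] at h
      simp [H1.pb_bn, H1.pb_bp, hbb, h4 b b' hne, h7 b b' hne, h]
  · intro v w hvw h
    rw [hcn, H1.card_filter_option_sum]
    rcases v with _ | a | b <;> rcases w with _ | a' | b'
    · exact absurd rfl hvw
    · exact absurd (H1.pb_np _) h
    · simp [H1.pb_nb, H1.pb_np, H1.pb_bp, h6]
    · exact absurd (H1.pb_pn _) h
    · have hne : a ≠ a' := fun e => hvw (by rw [e])
      simp [H1.pb_pn, H1.pb_pp, H1.pb_pb, h2 a a' hne]
    · rw [H1.pb_pb] at h
      simp [H1.pb_bn, H1.pb_pp, H1.pb_pb, hbb, h5, h]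
    · simp [H1.pb_nb, H1.pb_np, H1.pb_bp, h6]
    · rw [H1.pb_bp] at h
      have := h5 a' b
      simp only [and_comm] at this
      simp [H1.pb_bn, H1.pb_pp, H1.pb_pb, hbb, this, h]
    · have hne : b ≠ b' := fun e => hvw (by rw [e])
      rw [hbb] at h
      simp [H1.pb_bn, H1.pb_bp, hbb, h4 b b' hne, h7 b b' hne, h]

end Cfsg.Agent.S0428
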