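import Cfsg.Statements.S0430
import Cfsg.Agent.H1.Srg

set_option autoImplicit false
open Cfsg

namespace Cfsg.Agent.S0430

/-- Uniqueness of the strongly regular graph with parameters (100, 22, 0, 6). -/
theorem result {V W : Type*} [Fintype V] [Fintype W] {G : SimpleGraph V} {H : SimpleGraph W} [DecidableRel G.Adj] [DecidableRel H.Adj] (hG : G.IsSRGWith 100 22 0 6) (hH : H.IsSRGWith 100 22 0 6) : Nonempty (G ≃g H) := by
  classical
  obtain ⟨x⟩ : Nonempty V := Fintype.card_pos_iff.mp (by rw [hG.card]; norm_num)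
  obtain ⟨y⟩ : Nonempty W := Fintype.card_pos_iff.mp (by rw [hH.card]; norm_num)
  obtain ⟨B, hα, hB, ⟨e⟩⟩ := H1.exists_steiner_100 hG x
  obtain ⟨B', hβ, hB', ⟨e'⟩⟩ := H1.exists_steiner_100 hH y
  obtain ⟨f⟩ := H1.pointBlockGraph_iso (H1.unique_22 hα hβ hB hB')
  exact ⟨(e.symm.trans f).trans e'⟩

end Cfsg.Agent.S0430
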