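import Cfsg.Statements.S0591
import Cfsg.Agent.H6.Factor

set_option autoImplicit false
open Cfsg

namespace Cfsg.Agent.S0591

/-- For a quadratically acting element a on an elementary abelian p-group V, the fixed points C_V(a) have order at least the square root of the order of V. -/
theorem result {G : Type*} [Group G] [Finite G] {p : ℕ} [Fact p.Prime] (V : Subgroup G) (hV : Cfsg.IsElementaryAbelian p V) (a : G) (ha : a ∈ Subgroup.normalizer (V : Set G)) (hq : ⁅⁅V, Subgroup.zpowers a⁆, Subgroup.zpowers a⁆ = ⊥) : Nat.card V ≤ Nat.card ↥(V ⊓ Subgroup.centralizer (Subgroup.zpowers a : Set G)) ^ 2 := by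
  rw [← H6.card_centralizer_mul_card_commutator hV.1 ha, pow_two]
  refine Nat.mul_le_mul_left _ (Subgroup.card_le_of_le (le_inf ?_ ?_))
  · exact H6.commutator_le_of_le_normalizer (Subgroup.zpowers_le.mpr ha)
  · exact Subgroup.commutator_eq_bot_iff_le_centralizer.mp hq

end Cfsg.Agent.S0591
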