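import Cfsg.Statements.S0592
import Cfsg.Agent.H6.SL2

set_option autoImplicit false
open Cfsg

namespace Cfsg.Agent.S0592

/-- Two quadratically acting generators of a linear group that is not a p-group, with the p'-part of the order of their product dividing q - 1, give a homomorphism onto a subgroup of SL(2, q) that is not a p-group. -/
theorem result {K : Type*} [Field K] [Fintype K] {p : ℕ} [Fact p.Prime] [CharP K p] {W : Type*} [AddCommGroup W] [Module K W] [FiniteDimensional K W] [Finite W] [Nontrivial W] (H : Subgroup (W ≃ₗ[K] W)) (a b : W ≃ₗ[K] W) (hH : H = Subgroup.closure {a, b}) (ha : ∀ w : W, a (a w - w) = a w - w) (hb : ∀ w : W, b (b w - w) = b w - w) (hnp : ¬ IsPGroup p H) (hk : ∃ e k : ℕ, orderOf (a * b) = p ^ e * k ∧ k ∣ Fintype.card K - 1) : ∃ φ : H →* Matrix.SpecialLinearGroup (Fin 2) K, ¬ IsPGroup p φ.range := by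
  classical
  have haH : a ∈ H := hH ▸ Subgroup.subset_closure (by simp)
  have hbH : b ∈ H := hH ▸ Subgroup.subset_closure (by simp)
  let ρ : H →* Module.End K W := LinearEquiv.automorphismGroup.toLinearMapMonoidHom.comp H.subtype
  have hρ : ∀ g, ρ g = 1 → g = 1 := fun g hg =>
    Subtype.ext (LinearEquiv.toLinearMap_injective hg)
  have hp : p.Prime := Fact.out
  have hp0 : (p : Module.End K W) = 0 := by
    rw [← map_natCast (algebraMap K (Module.End K W)), CharP.cast_eq_zero, map_zero]
  obtain ⟨e, k, hek, m, hm⟩ := hk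
  have hq : 1 < Fintype.card K := Fintype.one_lt_card
  have hsplit : (Polynomial.X ^ Fintype.card K - Polynomial.X : Polynomial K).Splits := by
    rw [Polynomial.splits_iff_card_roots, FiniteField.roots_X_pow_card_sub_X,
      FiniteField.X_pow_card_sub_X_natDegree_eq K hq]
    rfl
  have hne : (Polynomial.X ^ Fintype.card K - Polynomial.X : Polynomial K) ≠ 0 :=
    FiniteField.X_pow_card_sub_X_ne_zero K hq
  rcases H6.two_quadratic ρ (H6.closure_pair_eq_top hH haH hbH) ha hb (pow_ne_zero (p ^ e) hne)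
    (hsplit.pow _) (by
      set u := ρ (⟨a, haH⟩ * ⟨b, hbH⟩) with hu
      have h1 : u ^ (p ^ e * k) = 1 := by
        rw [hu, ← map_pow, ← hek]
        have : ((⟨a, haH⟩ * ⟨b, hbH⟩ : H)) ^ orderOf (a * b) = 1 :=
          Subtype.ext (pow_orderOf_eq_one (a * b))
        rw [this, map_one]
      have h2 : u ^ Fintype.card K - u = u * (u ^ (k * m) - 1) := by
        rw [← hm, mul_sub, mul_one, ← pow_succ', Nat.sub_add_cancel hq.le]
      rw [map_pow, map_sub, map_pow, Polynomial.aeval_X, h2,
        (((Commute.refl u).pow_right _).sub_right (Commute.one_right u)).mul_pow]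
      obtain ⟨r, hr⟩ := (Commute.one_right (u ^ (k * m) - 1)).exists_add_pow_prime_pow_eq hp e
      rw [sub_add_cancel, hp0, ← pow_mul, show k * m * p ^ e = p ^ e * k * m by ring, pow_mul, h1,
        one_pow, one_pow, zero_mul, zero_mul, zero_mul, add_zero, right_eq_add] at hr
      rw [hr, mul_zero]) with h | ⟨φ, α, β, e₁, e₂, hα, hβ, -, h1, h2, -⟩
  · exfalso
    apply hnp
    intro g
    obtain ⟨n, hn⟩ := H6.pow_pow_eq_one_of_nilpotent hp hp0 (h g)
    exact ⟨n, hρ _ (by rw [map_pow, hn])⟩
  · exact ⟨φ, H6.not_isPGroup_of_transvections φ.range hα hβ ⟨_, h1⟩ ⟨_, h2⟩⟩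

end Cfsg.Agent.S0592
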