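import Cfsg.Statements.S0593
import Cfsg.Agent.H6.Natural

set_option autoImplicit false
open Cfsg

namespace Cfsg.Agent.S0593

/-- For odd p, a faithful group on an elementary abelian p-group generated by two quadratically acting elements is a p-group or has non-abelian Sylow 2-subgroups. -/
theorem result {G : Type*} [Group G] [Finite G] {p : ℕ} [Fact p.Prime] (hp : p ≠ 2) (V H : Subgroup G) (hV : Cfsg.IsElementaryAbelian p V) (hHV : H ≤ Subgroup.normalizer (V : Set G)) (hf : H ⊓ Subgroup.centralizer (V : Set G) = ⊥) (a b : G) (hab : H = Subgroup.closure {a, b}) (ha : ⁅⁅V, Subgroup.zpowers a⁆, Subgroup.zpowers a⁆ = ⊥) (hb : ⁅⁅V, Subgroup.zpowers b⁆, Subgroup.zpowers b⁆ = ⊥) (hnp : ¬ IsPGroup p H) (T : Sylow 2 H) : ¬ IsMulCommutative T := by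
  have haH : a ∈ H := hab ▸ H6.mem_closure_pair_left a b
  have hbH : b ∈ H := hab ▸ H6.mem_closure_pair_right a b
  rcases H6.natPair_of_two_quadratic hp hV (hHV haH) (hHV hbH) ha hb with
    h | ⟨x, hx, y, hy, e₁, he₁, e₂, he₂, h⟩
  · refine absurd (fun g => ?_) hnp
    obtain ⟨k, hk⟩ := h g (hab ▸ g.2)
    exact ⟨k, Subtype.ext (Subgroup.mem_bot.mp
      (hf ▸ Subgroup.mem_inf.mpr ⟨H.pow_mem g.2 _, hk⟩))⟩
  · rw [← hab] at hx hy
    exact (h.involves hV (hHV hx) (hHV hy) he₁ he₂ hx hy).not_comm_sylow_two hp T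

end Cfsg.Agent.S0593
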