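import Cfsg.Statements.S0594
import Cfsg.Agent.H6.Stab

set_option autoImplicit false
open Cfsg

namespace Cfsg.Agent.S0594

/-- For odd p, two quadratic generators of a faithful group that is not a p-group, one of which acts nontrivially on a normal subgroup of order prime to p, force p = 3 and a section isomorphic to SL(2,3). -/
theorem result {G : Type*} [Group G] [Finite G] {p : ℕ} [Fact p.Prime] (hp : p ≠ 2) (V H : Subgroup G) (hV : Cfsg.IsElementaryAbelian p V) (hHV : H ≤ Subgroup.normalizer (V : Set G)) (hf : H ⊓ Subgroup.centralizer (V : Set G) = ⊥) (a b : G) (hab : H = Subgroup.closure {a, b}) (ha : ⁅⁅V, Subgroup.zpowers a⁆, Subgroup.zpowers a⁆ = ⊥) (hb : ⁅⁅V, Subgroup.zpowers b⁆, Subgroup.zpowers b⁆ = ⊥) (hnp : ¬ IsPGroup p H) (Q : Subgroup G) (hQH : Q ≤ H) (hQn : H ≤ Subgroup.normalizer (Q : Set G)) (hQ : (Nat.card Q).Coprime p) (hQa : ⁅Q, Subgroup.zpowers a⁆ ≠ ⊥) : p = 3 ∧ ∃ (K L : Subgroup G) (hL : (L.subgroupOf K).Normal), K ≤ H ∧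 Nonempty ((K ⧸ L.subgroupOf K) ≃* Matrix.SpecialLinearGroup (Fin 2) (ZMod 3)) := by
  have haH : a ∈ H := hab ▸ H6.mem_closure_pair_left a b
  have hA : Subgroup.zpowers a ≤ H := Subgroup.zpowers_le.mpr haH
  have hK : Q ⊔ Subgroup.zpowers a ≤ H := sup_le hQH hA
  have hAp : IsPGroup p (Subgroup.zpowers a) := H6.isPGroup_of_quadratic hV (hA.trans hHV) ha
    (eq_bot_iff.mpr (hf ▸ inf_le_inf_right _ hA))
  have h := H6.involves_of_quadratic_faithful hp hV (hK.trans hHV)
    (eq_bot_iff.mpr (hf ▸ inf_le_inf_right _ hK))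
    (Subgroup.mem_sup_right (Subgroup.mem_zpowers a)) ha fun h => hQa ?_
  · obtain rfl := h.eq_three hp (H6.isPSolvable_sup_of_coprime (hA.trans hQn) hQ hAp)
    exact ⟨rfl, (h.mono hK).section⟩
  · rw [eq_bot_iff, ← H6.inf_eq_bot_of_isPGroup_of_coprime
      (H6.isPGroup_pCoreIn (p := p) (Q ⊔ Subgroup.zpowers a)) hQ]
    refine le_inf ?_ (H6.commutator_le_of_le_normalizer (hA.trans hQn))
    rw [Subgroup.commutator_comm]
    exact (Subgroup.commutator_mono (Subgroup.zpowers_le.mpr h) le_rfl).trans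
      (H6.commutator_le_of_le_normalizer (le_sup_left.trans (H6.le_normalizer_pCoreIn _)))

end Cfsg.Agent.S0594
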