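import Cfsg.Statements.S0617
import Cfsg.Agent.H6.FF4

set_option autoImplicit false
open Cfsg

namespace Cfsg.Agent.S0617

/-- Structure Theorem for failure of factorization: a faithful group generated by best offenders, with self-centralizing p'-core, is a direct product of copies of SL(2, p) (p = 2 or 3), each acting on its own plane in V, which is the direct product of these planes and C_V(H). -/
theorem result {G : Type*} [Group G] [Finite G] {p : ℕ} [Fact p.Prime] (V H : Subgroup G) (hV : Cfsg.IsElementaryAbelian p V) (hHV : H ≤ Subgroup.normalizer (V : Set G)) (hf : H ⊓ Subgroup.centralizer (V : Set G) = ⊥) (hS1 : Subgroup.centralizer (Cfsg.pPrimeCore p ↥H : Set ↥H) ≤ Cfsg.pPrimeCore p ↥H) (hS3 : H = ⨆ A : {A : Subgroup G // A ≤ H ∧ Cfsg.IsBestOffenderOn p V A}, (A : Subgroup G)) (hH1 : H ≠ ⊥) : (p = 2 ∨ p = 3) ∧ (∀ E : {E : Subgroup G // ∃ A : Subgroup G, A ≤ H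 ∧ Cfsg.IsBestOffenderOn p V A ∧ ⁅V, A⁆ ≠ ⊥ ∧ (∀ B : Subgroup G, B ≤ A → Cfsg.IsBestOffenderOn p V B → ⁅V, B⁆ ≠ ⊥ → B = A) ∧ E = ⁅((Cfsg.pPrimeCore p ↥H).map H.subtype), A⁆ ⊔ A}, H ≤ Subgroup.normalizer ((E : Subgroup G) : Set G) ∧ Nonempty (↥(E : Subgroup G) ≃* Matrix.SpecialLinearGroup (Fin 2) (ZMod p)) ∧ Nat.card ↥(⁅V, (E : Subgroup G)⁆) = p ^ 2) ∧ iSupIndep (fun E : {E : Subgroup G // ∃ A : Subgroup G, A ≤ H ∧ Cfsg.IsBestOffenderOn p V A ∧ ⁅V, A⁆ ≠ ⊥ ∧ (∀ B : Subgroup G, B ≤ A → Cfsg.IsBestOffenderOn p V B → ⁅V, B⁆ ≠ ⊥ → B = A) ∧ E = ⁅((Cfsg.pPrimeCore p ↥H).map H.subtype), A⁆ ⊔ A} => (E : Subgroup G)) ∧ (⨆ E : {E : Subgroup G // ∃ A : Subgroup G, A ≤ H ∧ Cfsg.IsBestOffenderOn p V A ∧ ⁅V, A⁆ ≠ ⊥ ∧ (∀ B : Subgroup G, B ≤ A → Cfsg.IsBestOffenderOn p V B → ⁅V, B⁆ ≠ ⊥ → B = A) ∧ E = ⁅((Cfsg.pPrimeCore p ↥H).map H.subtype), A⁆ ⊔ A}, (E : Subgroup G)) = H ∧ iSupIndep (fun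 o : Option {E : Subgroup G // ∃ A : Subgroup G, A ≤ H ∧ Cfsg.IsBestOffenderOn p V A ∧ ⁅V, A⁆ ≠ ⊥ ∧ (∀ B : Subgroup G, B ≤ A → Cfsg.IsBestOffenderOn p V B → ⁅V, B⁆ ≠ ⊥ → B = A) ∧ E = ⁅((Cfsg.pPrimeCore p ↥H).map H.subtype), A⁆ ⊔ A} => o.elim (V ⊓ Subgroup.centralizer (H : Set G)) (fun E => ⁅V, (E : Subgroup G)⁆)) ∧ (V ⊓ Subgroup.centralizer (H : Set G)) ⊔ (⨆ E : {E : Subgroup G // ∃ A : Subgroup G, A ≤ H ∧ Cfsg.IsBestOffenderOn p V A ∧ ⁅V, A⁆ ≠ ⊥ ∧ (∀ B : Subgroup G, B ≤ A → Cfsg.IsBestOffenderOn p V B → ⁅V, B⁆ ≠ ⊥ → B = A) ∧ E = ⁅((Cfsg.pPrimeCore p ↥H).map H.subtype), A⁆ ⊔ A}, ⁅V, (E : Subgroup G)⁆) = V := by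
  have h := H6.FF.mk' hV hHV hf hS1
  obtain ⟨A₀, hA₀, hm₀⟩ := h.exists_minBO hS3 hH1
  set ι := {E : Subgroup G // ∃ A : Subgroup G, A ≤ H ∧ Cfsg.IsBestOffenderOn p V A ∧ ⁅V, A⁆ ≠ ⊥ ∧ (∀ B : Subgroup G, B ≤ A → Cfsg.IsBestOffenderOn p V B → ⁅V, B⁆ ≠ ⊥ → B = A) ∧ E = ⁅((Cfsg.pPrimeCore p ↥H).map H.subtype), A⁆ ⊔ A} with hι
  have hsle : ∀ E : ι, H6.SLE p V H E := by
    rintro ⟨_, A, h1, h2, h3, h4, rfl⟩
    exact h.sle_EE h1 ⟨h2, h3, h4⟩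
  have hd : ∀ E E' : ι, E' ≠ E →
      (E' : Subgroup G) ≤ Subgroup.centralizer ((⁅V, (E : Subgroup G)⁆ : Subgroup G) : Set G) ∧
        ⁅V, (E' : Subgroup G)⁆ ≤ V ⊓ Subgroup.centralizer ((E : Subgroup G) : Set G) := by
    rintro ⟨_, A, h1, h2, h3, h4, rfl⟩ ⟨_, B, k1, k2, k3, k4, rfl⟩ hne
    exact (h.dichotomy h1 ⟨h2, h3, h4⟩ k1 ⟨k2, k3, k4⟩).resolve_left
      fun e => hne (Subtype.ext e.symm)
  have hgen : (⨆ E : ι, (E : Subgroup G)) = H := le_antisymm (iSup_le fun E => (hsle E).le)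
    (h.le_of_gen hS3 fun B hB hm =>
      le_iSup_of_le ⟨_, B, hB, hm.bo, hm.ne, hm.min, rfl⟩ le_sup_right)
  obtain ⟨k, hk⟩ := IsPGroup.iff_card.mp (H6.EA.isPGroup hV)
  refine ⟨h.p23 hA₀ hm₀, fun E => ⟨?_, (hsle E).iso, (hsle E).card⟩, fun E => ?_, hgen,
    fun o => ?_, le_antisymm (sup_le inf_le_left (iSup_le fun E =>
      H6.commutator_le_of_le_normalizer ((hsle E).le.trans hHV))) ?_⟩
  · obtain ⟨_, A, h1, h2, h3, h4, rfl⟩ := E
    exact h.le_normalizer_EE hS3 h1 ⟨h2, h3, h4⟩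
  · exact (disjoint_iff.mpr (hsle E).faithful).mono_right
      (iSup₂_le fun E' hne => (hd E E' hne).1)
  · cases o with
    | none =>
      have h1 := H5.commutator_inf_centralizer_eq_bot hV.1
        ((H6.pPrimeCoreIn_le (p := p) H).trans hHV)
        (hk ▸ (H6.coprime_card_pPrimeCoreIn H).pow_right k)
      refine (disjoint_iff.mpr h1).symm.mono
        (inf_le_right.trans (H6.centralizer_anti (H6.pPrimeCoreIn_le H))) (iSup₂_le ?_)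
      rintro (_ | E) hne
      · exact absurd rfl hne
      · exact (hsle E).comm_core.ge.trans (Subgroup.commutator_mono le_rfl inf_le_right)
    | some E =>
      refine (disjoint_iff.mpr ((hsle E).inf_centralizer h)).mono_right (iSup₂_le ?_)
      rintro (_ | E') hne
      · exact inf_le_right.trans (H6.centralizer_anti (hsle E).le)
      · exact (hd E E' fun e => hne (congrArg some e)).2.trans inf_le_right
  · have hQ : (⨆ E : ι, (E : Subgroup G) ⊓ H6.pPrimeCoreIn p H) ≤ H6.pPrimeCoreIn p H :=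
      iSup_le fun _ => inf_le_right
    have h1 := H5.commutator_sup_centralizer (K := V)
      (hQ.trans ((H6.pPrimeCoreIn_le (p := p) H).trans hHV))
      (hk ▸ (H6.coprime_card_of_le hQ (H6.coprime_card_pPrimeCoreIn H)).pow_right k)
      (Or.inr (H5.isSolvable_of_isMulCommutative hV.1))
    refine h1.ge.trans (sup_le (le_sup_of_le_right ?_) (le_sup_of_le_left (le_inf inf_le_left ?_)))
    · rw [H6.commutator_iSup_right fun E : ι => inf_le_left.trans ((hsle E).le.trans hHV)]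
      exact iSup_mono fun E => (hsle E).comm_core.le
    · refine le_trans ?_ (H6.centralizer_anti hgen.ge)
      rw [H6.centralizer_iSup fun E : ι => (E : Subgroup G)]
      exact le_iInf fun E => (inf_le_inf_left _ (H6.centralizer_anti
        (le_iSup (fun E : ι => (E : Subgroup G) ⊓ H6.pPrimeCoreIn p H) E))).trans
          ((hsle E).centralizer_core_le h)

end Cfsg.Agent.S0617
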