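import Cfsg.Statements.S0618
import Cfsg.Agent.H6.FF6

set_option autoImplicit false
open Cfsg

namespace Cfsg.Agent.S0618

/-- A p-separable group with trivial p'-core in which the Thompson factorization fails has p = 2 or 3, and J(G) induces on the normal closure of Ω₁(Z(S)) a group containing a normal SL(2, p). -/
theorem result {G : Type*} [Group G] [Finite G] {p : ℕ} [Fact p.Prime] (hsep : Cfsg.IsPSolvable p G) (hO : Cfsg.pPrimeCore p G = ⊥) (hnf : ¬ Cfsg.IsThompsonFactorizable p G) : (p = 2 ∨ p = 3) ∧ ∃ E : Subgroup G, Subgroup.centralizer ((⨆ S : Sylow p G, Cfsg.omegaOne p ((S : Subgroup G) ⊓ Subgroup.centralizer ((S : Subgroup G) : Set G))) : Set G) ≤ E ∧ E ≤ Cfsg.thompsonSubgroup p G ⊔ Subgroup.centralizer ((⨆ S : Sylow p G, Cfsg.omegaOne p ((S : Subgroup G) ⊓ Subgroup.centralizer ((S : Subgroup G) : Set G))) : Set G) ∧ Cfsg.thompsonSubgroup p G ⊔ Subgroup.centralizer ((⨆ S : Sylow p G, Cfsg.omegaOne p ((S : Subgroup G) ⊓ Subgroup.centralizer ((S :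 Subgroup G) : Set G))) : Set G) ≤ Subgroup.normalizer (E : Set G) ∧ ∃ hn : ((Subgroup.centralizer ((⨆ S : Sylow p G, Cfsg.omegaOne p ((S : Subgroup G) ⊓ Subgroup.centralizer ((S : Subgroup G) : Set G))) : Set G)).subgroupOf E).Normal, Nonempty ((↥E ⧸ (Subgroup.centralizer ((⨆ S : Sylow p G, Cfsg.omegaOne p ((S : Subgroup G) ⊓ Subgroup.centralizer ((S : Subgroup G) : Set G))) : Set G)).subgroupOf E) ≃* Matrix.SpecialLinearGroup (Fin 2) (ZMod p)) := by
  have e0 : Subgroup.centralizer ((⨆ S : Sylow p G, Cfsg.omegaOne p ((S : Subgroup G) ⊓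
      Subgroup.centralizer ((S : Subgroup G) : Set G))) : Set G) =
      Subgroup.centralizer (H6.sylowZ p G : Set G) := by
    rw [H6.sylowZ, Subgroup.iSup_eq_closure, Subgroup.centralizer_closure]
    rfl
  rw [e0]
  have hn := H6.sylowZ_normal (p := p) (G := G)
  have hV := H6.sylowZ_elementary (H5.centralizer_pCore_le hsep hO)
  obtain ⟨Γ, _, _, j, ι, h⟩ := H6.exists_hol hV.1
  have hK : ⊤ ≤ Subgroup.normalizer (H6.sylowZ p G : Set G) := Subgroup.le_normalizer_of_normal
  have hJ := H6.thompson_normal (p := p) (G := G)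
  have hcore := h.pCoreIn_im_eq_bot (p := p) hK fun D _ hD hp => by
    have := H4.normal_of_top_le_normalizer hD
    exact H6.le_centralizer_of_gen_sylow (fun S : Sylow p G => H6.omegaZ p (S : Subgroup G)) rfl
      (fun S => H6.omegaZ_le_centralizer _) (H6.relIndex_eq_pow Subgroup.le_normalizer_of_normal hp)
  have hff := h.ff hV hK (H5.isPSolvable_subgroup hsep ⊤) hcore (J := thompsonSubgroup p G) le_top
    Subgroup.le_normalizer_of_normal
  have hgen := h.gen hV le_top hK
  rw [H6.thompsonOf_top] at hgen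
  obtain ⟨A, hA, hm⟩ := hff.exists_minBO hgen fun e => hnf ((H6.factorizable_iff hO).mpr
    ((H5.im_eq_bot_iff h.ker (le_top.trans hK)).mp e))
  have hE := hff.sle_EE hA hm
  have hC := H5.le_pre_of_ker h.ker (H6.centralizer_le_normalizer' _)
    (H6.EE p (H5.im ι (thompsonSubgroup p G)) A)
  obtain ⟨φ⟩ := hE.iso
  refine ⟨hE.p23, H5.pre ι (H6.EE p (H5.im ι (thompsonSubgroup p G)) A), hC, ?_,
    sup_le (H5.le_normalizer_pre (le_top.trans hK) (hff.le_normalizer_EE hgen hA hm))
      (hC.trans Subgroup.le_normalizer), H6.exists_quot_equiv (φ.toMonoidHom.comp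
        ((ι.comp (Subgroup.inclusion (H5.pre_le _))).codRestrict _
          fun x => (H5.mem_pre.mp x.2).2)) (φ.surjective.comp ?_) fun g => ?_⟩
  · exact (H5.pre_mono hE.le).trans
      (H5.pre_im h.ker (H6.centralizer_le_normalizer' _) (le_top.trans hK)).le
  · rintro ⟨y, hy⟩
    obtain ⟨x, -, rfl⟩ := hE.le hy
    exact ⟨⟨x, H5.coe_mem_pre.mpr hy⟩, rfl⟩
  · rw [MonoidHom.comp_apply, MulEquiv.coe_toMonoidHom, map_eq_one_iff _ φ.injective,
      Subtype.ext_iff]
    exact h.eq_one_iff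

end Cfsg.Agent.S0618
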