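import Cfsg.Statements.S0619
import Cfsg.Agent.H6.FF6

set_option autoImplicit false
open Cfsg
open scoped commutatorElement

namespace Cfsg.Agent.S0619

/-- For a p-separable group and a normal elementary abelian p-subgroup V with no nontrivial normal p-subgroup modulo its centralizer C, the Thompson subgroup J(G) moves Ω₁(Z(J(C))) only inside V. -/
theorem result {G : Type*} [Group G] [Finite G] {p : ℕ} [Fact p.Prime] (hsep : Cfsg.IsPSolvable p G) (V : Subgroup G) [V.Normal] (hV : Cfsg.IsElementaryAbelian p V) (hO : Cfsg.pCore p (G ⧸ Subgroup.centralizer (V : Set G)) = ⊥) : ⁅Cfsg.omegaOne p (Cfsg.centerThompsonOf p (Subgroup.centralizer (V : Set G))), Cfsg.thompsonSubgroup p G⁆ ≤ V := by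
  obtain ⟨Γ, _, _, j, ι, h⟩ := H6.exists_hol hV.1
  have hK : ⊤ ≤ Subgroup.normalizer (V : Set G) := Subgroup.le_normalizer_of_normal
  have hcore := h.pCoreIn_im_eq_bot (p := p) hK fun D _ hD hp => by
    have := H4.normal_of_top_le_normalizer hD
    have hn := this.map _ (QuotientGroup.mk'_surjective (Subgroup.centralizer (V : Set G)))
    have h1 := H6.le_pCore (p := p) (hN := hn) (H4.isPGroup_iff_forall.mpr (by
      rintro _ ⟨d, hd, rfl⟩
      obtain ⟨k, hk⟩ := hp d hd
      exact ⟨k, by rw [← map_pow]; exact (QuotientGroup.eq_one_iff _).mpr hk⟩))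
    rwa [hO, le_bot_iff, Subgroup.map_eq_bot_iff, QuotientGroup.ker_mk'] at h1
  have hff := h.ff hV hK (H5.isPSolvable_subgroup hsep ⊤) hcore le_rfl Subgroup.le_normalizer
  set C := Subgroup.centralizer (V : Set G) with hC
  have hVC : V ≤ C := H6.EA.le_centralizer hV
  have hZ : ⊤ ≤ Subgroup.normalizer (H6.omegaZ p (thompsonSubgroupOf p C) : Set G) :=
    (Subgroup.le_normalizer_of_normal.trans (H6.normalizer_le_normalizer_thompsonOf C)).trans
      (H6.normalizer_le_normalizer_omegaZ _)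
  refine H6.commutator_le_of_le_cstab (H6.thompson_le_iff.mpr fun A hA =>
    H6.le_cstab (le_top.trans hZ) ?_)
  have hAN : A ≤ Subgroup.normalizer (V : Set G) := le_top.trans hK
  have e1 := hff.ofn_eq (H5.im_mono le_top) (h.bo_im hAN (hA.bestOffender le_top hV))
  have e2 := h.ofn_im hAN
  rw [e1, h.card_range, H6.ofn, hA.inf_centralizer_eq le_top hV] at e2
  have e3 := H6.card_mul_card_eq (A := A ⊓ C) (B := V) (inf_le_left.trans hAN)
  rw [inf_assoc, inf_eq_right.mpr hVC, inf_comm A V, mul_comm, e2, mul_comm] at e3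
  have hA₀ : H6.MaxEA p C (A ⊓ C ⊔ V) := (hA.of_card_le le_top
    (H6.EA.sup (H6.EA.mono hA.2.1 inf_le_left) hV inf_le_right)
    (Nat.eq_of_mul_eq_mul_left Nat.card_pos e3).le).of_le (sup_le inf_le_right hVC) le_top
  have h1 : H6.omegaZ p (thompsonSubgroupOf p C) ≤ A ⊓ C ⊔ V :=
    hA₀.le_of_centralizer ((H6.omegaZ_le _).trans (H6.thompsonOf_le C)) (H6.EA.omegaZ _)
      ((H6.omegaZ_le_centralizer _).trans (H6.centralizer_anti hA₀.le_thompsonOf))
  rw [Subgroup.commutator_le]
  intro z hz a ha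
  obtain ⟨c, hc, v, hv, rfl⟩ := (H6.mem_sup_of_le_normalizer (inf_le_left.trans hAN)).mp (h1 hz)
  have : ⁅c * v, a⁆ = c * ⁅v, a⁆ * c⁻¹ := by
    have := H6.EA.comm hA.2.1 hc.1 (A.inv_mem ha)
    calc ⁅c * v, a⁆ = c * v * a * v⁻¹ * (c⁻¹ * (a⁻¹ * c)) * c⁻¹ := by
          rw [commutatorElement_def]; group
      _ = _ := by rw [← this, commutatorElement_def]; group
  rw [this]
  exact H6.conj_mem (hAN hc.1) (H6.comm_mem (hAN ha) hv)

end Cfsg.Agent.S0619
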