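import Cfsg.Statements.S0620
import Cfsg.Agent.H6.FF6

set_option autoImplicit false
open Cfsg

namespace Cfsg.Agent.S0620

/-- Under coprime action of an elementary abelian q-group X on a p-separable group K with trivial p'-core, K is generated by the normalizer of J(S), the centralizer of Ω₁(Z(S)) and the fixed points of X. -/
theorem result {G : Type*} [Group G] [Finite G] {p : ℕ} [Fact p.Prime] {q : ℕ} [Fact q.Prime] (K X : Subgroup G) (hXK : X ≤ Subgroup.normalizer (K : Set G)) (hX : Cfsg.IsElementaryAbelian q X) (hq : ¬ q ∣ Nat.card K) (hsep : Cfsg.IsPSolvable p ↥K) (hO : Cfsg.pPrimeCore p ↥K = ⊥) (S : Sylow p ↥K) : (Subgroup.normalizer (Cfsg.thompsonSubgroupOf p (S : Subgroup ↥K) : Set ↥K) ⊔ Subgroup.centralizer (Cfsg.omegaOne p ((S : Subgroup ↥K) ⊓ Subgroup.centralizer ((S : Subgroup ↥K) : Set ↥K)) : Set ↥K) ⊔ (Subgroup.centralizer (X : Set G)).subgroupOf K) = ⊤ := by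
  have hc := H6.sylowZ_characteristic (p := p) (G := K)
  have hV := H6.EA.map (H6.sylowZ_elementary (H5.centralizer_pCore_le hsep hO)) K.subtype
  set V := (H6.sylowZ p K).map K.subtype with hVdef
  obtain ⟨Γ, _, _, j, ι, h⟩ := H6.exists_hol hV.1
  have hN : Subgroup.normalizer (K : Set G) ≤ Subgroup.normalizer (V : Set G) :=
    H5.normalizer_le_normalizer_map_subtype K _
  have hK := Subgroup.le_normalizer.trans hN
  have hVK : V ≤ K := Subgroup.map_subtype_le _
  have hNJ := H6.normalizer_le_normalizer_thompsonOf (p := p) K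
  have hJK := H6.thompsonOf_le (p := p) K
  have hff := h.ff hV hK hsep (h.pCoreIn_im_eq_bot hK fun D => H6.sylowZ_core) hJK
    (Subgroup.le_normalizer.trans hNJ)
  have hgen := h.gen hV hVK hK
  have hJn := H6.thompson_normal (p := p) (G := K)
  have hS := (H5.isSylowOf_top S).inf_of_le_normalizer (N := thompsonSubgroup p K) le_top
    Subgroup.le_normalizer_of_normal
  set M := Subgroup.normalizer (Cfsg.thompsonSubgroupOf p (S : Subgroup ↥K) : Set ↥K) ⊔
    Subgroup.centralizer (Cfsg.omegaOne p ((S : Subgroup ↥K) ⊓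
      Subgroup.centralizer ((S : Subgroup ↥K) : Set ↥K)) : Set ↥K) ⊔
    (Subgroup.centralizer (X : Set G)).subgroupOf K with hM
  have hNM : Subgroup.normalizer (Cfsg.thompsonSubgroupOf p (S : Subgroup ↥K) : Set ↥K) ≤ M :=
    le_sup_of_le_left le_sup_left
  have hlift := H5.im_inf_centralizer h.ker (hXK.trans hN) hXK
    (H5.coprime_card_of_isPGroup (H6.EA.isPGroup hX) (H5.not_dvd_of_le inf_le_left hq))
    (Or.inl (H5.isSolvable_of_isMulCommutative hX.1))
  have key := hff.le_of_sylow_of_fixed hgen Fact.out (H5.not_dvd_im (H5.not_dvd_of_le hJK hq))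
    (H5.elem_im hX) (h.im_le_normalizer_range X) (H5.im_le_normalizer (hXK.trans hNJ))
    ((hS.map K.subtype).im (hJK.trans hK)) (M := H5.im ι (M.map K.subtype))
    (H5.im_mono (Subgroup.map_mono (inf_le_left.trans ((Subgroup.le_normalizer.trans
      (H6.normalizer_le_normalizer_thompsonOf _)).trans hNM))))
    ((inf_le_inf_right _ (H5.im_mono hJK)).trans (hlift.ge.trans (H5.im_mono
      fun g hg => ⟨⟨g, hg.1⟩, Subgroup.mem_sup_right hg.2, rfl⟩)))
  rw [eq_top_iff, ← hS.sup_normalizer le_top Subgroup.le_normalizer_of_normal]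
  refine sup_le (fun g hg => ?_) (inf_le_right.trans (le_trans ?_ hNM))
  · obtain ⟨⟨_, hmN⟩, ⟨m, hm, rfl⟩, e⟩ := key (H5.mem_im_of_mem (hK g.2)
      (Subgroup.mem_map_of_mem _ hg))
    rw [← inv_mul_eq_one, ← map_inv, ← map_mul, h.eq_one_iff] at e
    have h1 : m⁻¹ * g ∈ M := Subgroup.mem_sup_left (Subgroup.mem_sup_right (H6.centralizer_anti
      (le_iSup (fun S : Sylow p K => H6.omegaZ p (S : Subgroup K)) S)
        (H6.mem_centralizer_map_subtype.mp e)))
    simpa using M.mul_mem hm h1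
  · rw [← H6.thompsonOf_eq_of_le (le_inf (H6.thompsonOf_le _) (H6.thompsonOf_sylow_le S))
      inf_le_left]
    exact H6.normalizer_le_normalizer_thompsonOf _

end Cfsg.Agent.S0620
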