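import Cfsg.Statements.S0621
import Cfsg.Agent.H6.FF6

set_option autoImplicit false
open Cfsg

namespace Cfsg.Agent.S0621

/-- Let K be p-separable with O_p'(K) = 1, normalized by an elementary abelian q-group X for a prime q not dividing the order of K. If the Thompson factorization fails in K, then p is 2 or 3 and the fixed points of X contain a plane W of order p² and a subgroup inducing SL(2, p) on it. -/
theorem result {G : Type*} [Group G] [Finite G] {p : ℕ} [Fact p.Prime] {q : ℕ} [Fact q.Prime] (K X : Subgroup G) (hXK : X ≤ Subgroup.normalizer (K : Set G)) (hX : Cfsg.IsElementaryAbelian q X) (hq : ¬ q ∣ Nat.card K) (hsep : Cfsg.IsPSolvable p ↥K) (hO : Cfsg.pPrimeCore p ↥K = ⊥) (hnf : ¬ Cfsg.IsThompsonFactorizable p ↥K) : (p = 2 ∨ p = 3) ∧ ∃ W D : Subgroup G, W ≤ K ⊓ Subgroup.centralizer (X : Set G) ∧ D ≤ K ⊓ Subgroup.centralizer (X : Set G) ∧ Cfsg.IsElementaryAbelian p W ∧ Nat.card W = p ^ 2 ∧ D ≤ Subgroup.normalizer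 (W : Set G) ∧ ∃ hn : ((Subgroup.centralizer (W : Set G)).subgroupOf D).Normal, Nonempty ((↥D ⧸ (Subgroup.centralizer (W : Set G)).subgroupOf D) ≃* Matrix.SpecialLinearGroup (Fin 2) (ZMod p)) := by
  have hc := H6.sylowZ_characteristic (p := p) (G := K)
  have hV := H6.EA.map (H6.sylowZ_elementary (H5.centralizer_pCore_le hsep hO)) K.subtype
  set V := (H6.sylowZ p K).map K.subtype with hVdef
  obtain ⟨Γ, _, _, j, ι, h⟩ := H6.exists_hol hV.1
  have hN : Subgroup.normalizer (K : Set G) ≤ Subgroup.normalizer (V : Set G) :=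
    H5.normalizer_le_normalizer_map_subtype K _
  have hK := Subgroup.le_normalizer.trans hN
  have hVK : V ≤ K := Subgroup.map_subtype_le _
  have hNJ := H6.normalizer_le_normalizer_thompsonOf (p := p) K
  have hJK := H6.thompsonOf_le (p := p) K
  have hff := h.ff hV hK hsep (h.pCoreIn_im_eq_bot hK fun D => H6.sylowZ_core) hJK
    (Subgroup.le_normalizer.trans hNJ)
  have hgen := h.gen hV hVK hK
  obtain ⟨A, hA, hm⟩ := hff.exists_minBO hgen fun e => hnf ((H6.factorizable_iff hO).mpr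
    fun g hg => H6.mem_centralizer_map_subtype.mp
      ((H5.im_eq_bot_iff h.ker (hJK.trans hK)).mp e (Subgroup.mem_map_of_mem _ hg)))
  obtain ⟨a, ha, b, hb, e₁, he₁, e₂, he₂, β, n1, n2, r1, r2, r3, r4⟩ :=
    hff.exists_fixed_pair hgen hA hm (H5.not_dvd_im (H5.not_dvd_of_le hJK hq)) (H5.elem_im hX)
      (h.im_le_normalizer_range X) (H5.im_le_normalizer (hXK.trans hNJ))
  have hlift := H5.im_inf_centralizer h.ker (hXK.trans hN) hXK
    (H5.coprime_card_of_isPGroup (H6.EA.isPGroup hX) (H5.not_dvd_of_le inf_le_left hq))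
    (Or.inl (H5.isSolvable_of_isMulCommutative hX.1))
  obtain ⟨a, ha', rfl⟩ := hlift.ge ⟨H5.im_mono hJK ha.1, ha.2⟩
  obtain ⟨b, hb', rfl⟩ := hlift.ge ⟨H5.im_mono hJK hb.1, hb.2⟩
  rw [h.range_inf_centralizer (hXK.trans hN)] at he₁ he₂
  obtain ⟨e₁, he₁, rfl⟩ := he₁
  obtain ⟨e₂, he₂, rfl⟩ := he₂
  rw [h.conj] at r1 r2 r3 r4
  rw [← map_mul] at r2
  rw [← map_pow, ← map_mul] at r4
  obtain ⟨hind, f, hf, -, -, hact, hker⟩ := H6.exists_sl2_hom_group hV a.2 b.2 e₁.2 e₂.2 (α := 1)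
    (fun e => n1 (by rw [show e₁ = 1 from Subtype.ext e, map_one])) (by simp) n2
    (congrArg Subtype.val (h.inj r1)) (by rw [pow_one]; exact congrArg Subtype.val (h.inj r2))
    (congrArg Subtype.val (h.inj r3)) (congrArg Subtype.val (h.inj r4))
  refine ⟨hff.p23 hA hm, Subgroup.closure {(e₁ : G), (e₂ : G)}, Subgroup.closure {(a : G), (b : G)},
    H6.closure_pair_le ⟨hVK e₁.2, he₁.2⟩ ⟨hVK e₂.2, he₂.2⟩, H6.closure_pair_le ha' hb',
    H6.EA.mono hV (H6.closure_pair_le e₁.2 e₂.2), H6.card_closure_pair_of_indep hV e₁.2 e₂.2 hind,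
    fun g hg => H6.mem_normalizer_of_map_conj_le ?_, H6.exists_quot_equiv f hf hker⟩
  rw [MonoidHom.map_closure, Set.image_pair]
  have m1 := H6.mem_closure_pair_left (e₁ : G) (e₂ : G)
  have m2 := H6.mem_closure_pair_right (e₁ : G) (e₂ : G)
  exact H6.closure_pair_le
    ((hact ⟨g, hg⟩).1 ▸ Subgroup.mul_mem _ (Subgroup.pow_mem _ m1 _) (Subgroup.pow_mem _ m2 _) :
      g * e₁ * g⁻¹ ∈ _)
    ((hact ⟨g, hg⟩).2 ▸ Subgroup.mul_mem _ (Subgroup.pow_mem _ m1 _) (Subgroup.pow_mem _ m2 _) :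
      g * e₂ * g⁻¹ ∈ _)

end Cfsg.Agent.S0621
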