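import Cfsg.Statements.S0629
import Cfsg.Agent.H5.Constr

set_option autoImplicit false
open Cfsg

namespace Cfsg.Agent.S0629

/-- A group in which the centralizer of a Sylow p-subgroup of O_{p',p}(G) is p-solvable is p-constrained. -/
theorem result {G : Type*} [Group G] [Finite G] {p : ℕ} [Fact p.Prime] (P : Sylow p ↥(Cfsg.pPrimePCore p G)) (hsol : Cfsg.IsPSolvable p ↥(Subgroup.centralizer (((P : Subgroup ↥(Cfsg.pPrimePCore p G)).map (Cfsg.pPrimePCore p G).subtype : Subgroup G) : Set G))) : Cfsg.IsPConstrained p G := by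
  have hf := QuotientGroup.mk'_surjective (pPrimeCore p G)
  have hk := (QuotientGroup.ker_mk' (pPrimeCore p G)).symm
  have hP := H5.isSylowOf_map_subtype P
  have e : (pPrimePCore p G).map (QuotientGroup.mk' (pPrimeCore p G)) = pCore p _ :=
    Subgroup.map_comap_eq_self_of_surjective hf _
  have e1 := hP.map_eq_of_isPGroup _ (e ▸ H4.isPGroup_pCore p _)
  have e2 := H5.map_centralizer hf (H5.coprime_card_of_isPGroup hP.isPGroup
    ((Fact.out : p.Prime).coprime_iff_not_dvd.1 (hk ▸ H4.coprime_card_pPrimeCore p G).symm))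
    (Or.inl (H5.isSolvable_of_isPGroup hP.isPGroup))
  rw [e1, e] at e2
  rw [H5.isPConstrained_iff]
  apply H5.centralizer_pCore_le_of_isPSolvable_centralizer (H4.pPrimeCore_quotient_pPrimeCore p G)
  rw [← e2]
  exact H5.isPSolvable_map _ hsol

end Cfsg.Agent.S0629
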