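import Cfsg.Statements.S0633
import Cfsg.Agent.H5.HHB3
import Cfsg.Agent.H5.PSolv
import Cfsg.Agent.H5.InvSylow

set_option autoImplicit false
open Cfsg

namespace Cfsg.Agent.S0633

open Subgroup in
theorem exists_sylow {G : Type*} [Group G] [Finite G] {p : ℕ} [hp : Fact p.Prime]
    (hsol : IsPSolvable p G) (hOp : pCore p G = ⊥) (x : G) (n : ℕ) (hn : orderOf x = p ^ (n + 1)) :
    ∃ (q : ℕ) (Q : Subgroup G), q.Prime ∧ p ≠ q ∧ IsPGroup q Q ∧ (∀ g ∈ Q, x * g * x⁻¹ ∈ Q) ∧
      ∃ g ∈ Q, ¬ Commute (x ^ p ^ n) g := by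
  by_contra hcon
  push Not at hcon
  have hK := H4.coprime_card_pPrimeCore p G
  have h1 : pPrimeCore p G ≤ centralizer {x ^ p ^ n} := by
    refine H5.le_of_forall_sylow fun r hr hd => ?_
    obtain ⟨P, hP, hxP⟩ := H5.exists_invariant_isSylowOf r (A := zpowers x) (K := pPrimeCore p G)
      (by rw [normalizer_eq_top]; exact le_top)
      (by rw [Nat.card_zpowers, hn]; exact hK.symm.pow_left _)
      (Or.inl (Group.isSolvable_of_comm fun a b => mul_comm' a b))
    refine ⟨P, hP, fun g hg => mem_centralizer_singleton_iff.mpr (hcon r P hr.out ?_ hP.isPGroup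
      (fun g hg => (mem_normalizer_iff.mp (hxP (mem_zpowers x)) g).mp hg) g hg).symm.eq⟩
    rintro rfl
    exact hp.out.one_lt.ne' (Nat.Coprime.eq_one_of_dvd hK.symm hd)
  have h2 : x ^ p ^ n ∈ pPrimeCore p G := H5.centralizer_pPrimeCore_le hsol hOp fun g hg =>
    mem_centralizer_singleton_iff.mp (h1 hg)
  have h3 : orderOf (x ^ p ^ n) = p := by
    rw [orderOf_pow_of_dvd (pow_pos hp.out.pos n).ne' (hn ▸ pow_dvd_pow p n.le_succ), hn, pow_succ,
      Nat.mul_div_cancel_left _ (pow_pos hp.out.pos n)]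
  have h4 := Subgroup.orderOf_dvd_natCard _ h2
  rw [h3] at h4
  exact hp.out.one_lt.ne' (Nat.Coprime.eq_one_of_dvd hK.symm h4)

/-- Theorem B of Hall and Higman on the minimal polynomial of a p-element of order p^n in a p-solvable linear group on a nonzero vector space in characteristic p with no nontrivial normal p-subgroup: its degree is p^n, except when some p^n₀ - 1 (n₀ ≤ n) is a power of a prime q for which the Sylow q-subgroups are non-abelian, in which case the degree is at least p^(n-n₀)(p^n₀ - 1). -/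
theorem result {F : Type*} [Field F] {p : ℕ} [Fact p.Prime] [CharP F p] {V : Type*} [AddCommGroup V] [Module F V] [FiniteDimensional F V] [Nontrivial V] (H : Subgroup (V ≃ₗ[F] V)) [Finite H] (hsol : Cfsg.IsPSolvable p H) (hOp : Cfsg.pCore p H = ⊥) (x : V ≃ₗ[F] V) (hx : x ∈ H) (n : ℕ) (hn : orderOf x = p ^ n) (r : ℕ) (hr : minpoly F (x : Module.End F V) = (Polynomial.X - 1) ^ r) : r = p ^ n ∨ ∃ n₀ q m : ℕ, 1 ≤ n₀ ∧ n₀ ≤ n ∧ q.Prime ∧ 1 ≤ m ∧ p ^ n₀ - 1 = q ^ m ∧ (∀ Q : Sylow q H, ¬ IsMulCommutative Q) ∧ p ^ (n - n₀) * (p ^ n₀ - 1) ≤ r := by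
  have hx0 : ((x : Module.End F V) - 1) ^ r = 0 := by
    simpa [hr] using minpoly.aeval F (x : Module.End F V)
  let ι : (V ≃ₗ[F] V) →* Module.End F V := LinearEquiv.automorphismGroup.toLinearMapMonoidHom
  have hle : r ≤ p ^ n := by
    have h1 : minpoly F (x : Module.End F V) ∣ (Polynomial.X - 1) ^ p ^ n := by
      apply minpoly.dvd
      have : (x : Module.End F V) ^ p ^ n = 1 := by
        rw [show (x : Module.End F V) = ι x from rfl, ← map_pow, ← hn, pow_orderOf_eq_one, map_one]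
      simp [H5.HH.sub_one_pow_char F p, this]
    rw [hr] at h1
    exact (pow_dvd_pow_iff (Polynomial.X_sub_C_ne_zero 1) (Polynomial.not_isUnit_X_sub_C 1)).mp h1
  rcases n with _ | n
  · left
    rcases r with _ | r
    · exact absurd hx0 (by simp)
    · simp at hle ⊢; omega
  obtain ⟨q, Q, hq, hpq, hQ, hxQ, g, hg, hng⟩ := exists_sylow hsol hOp ⟨x, hx⟩ n
    (by rw [← hn, Subgroup.orderOf_mk])
  let K := AlgebraicClosure F
  let φ := Module.End.baseChangeHom F K V
  have hφ : Function.Injective φ := LinearMap.baseChangeHom_injective F V K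
  let ρ : H →* (Module.End K (TensorProduct F K V))ˣ :=
    MonoidHom.toHomUnits ((φ : Module.End F V →* _).comp (ι.comp H.subtype))
  have hρ : Function.Injective ρ := fun a b e =>
    Subtype.ext (LinearEquiv.toLinearMap_injective (hφ (congrArg Units.val e)))
  have := (H5.HH.stmt (K := K) hq hpq _).hom ρ Q ⟨x, hx⟩ n r (Nat.lt_succ_self _) hQ
    (Subtype.ext (by simp [← hn])) hxQ ⟨g, hg, fun h => hng (hρ (by
      rw [map_mul, map_mul, map_pow]; exact h))⟩ (by
      have := congrArg φ hx0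
      rwa [map_pow, map_sub, map_one, map_zero] at this)
  rcases this with h | ⟨⟨a, ha, b, hb, hab⟩, n₀, m, h1, h2, h3, h4, h5⟩
  · exact Or.inl (le_antisymm hle h)
  refine Or.inr ⟨n₀, q, m, h1, h2, hq, h3, h4, fun S hS => hab ?_, h5⟩
  haveI := Fact.mk hq
  obtain ⟨S', hS'⟩ := hQ.exists_le_sylow
  have e := Sylow.equiv S' S
  have h6 : (⟨a, hS' ha⟩ : S') * ⟨b, hS' hb⟩ = ⟨b, hS' hb⟩ * ⟨a, hS' ha⟩ :=
    e.injective (by rw [map_mul, map_mul, mul_comm'])
  exact congrArg Subtype.val h6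

end Cfsg.Agent.S0633
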