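import Cfsg.Statements.S0657
import Cfsg.Agent.H6.Stab

set_option autoImplicit false
open Cfsg

namespace Cfsg.Agent.S0657

/-- For odd p, a group that fails to be p-stable modulo its largest normal subgroup of order prime to p, and whose upper p-series does not stop there, has a section isomorphic to SL(2, p). -/
theorem result {G : Type*} [Group G] [Finite G] {p : ℕ} [Fact p.Prime] (hp : p ≠ 2) (hO : Cfsg.pPrimeCore p G < Cfsg.pPrimePCore p G) (hns : ¬ Cfsg.IsPStable p (G ⧸ Cfsg.pPrimeCore p G)) : ∃ (K L : Subgroup G) (hL : (L.subgroupOf K).Normal), K ≤ ⊤ ∧ Nonempty ((K ⧸ L.subgroupOf K) ≃* Matrix.SpecialLinearGroup (Fin 2) (ZMod p)) := by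
  refine H6.Involves.section (H6.Involves.of_surjective
    (QuotientGroup.mk'_surjective (pPrimeCore p G)) ?_)
  by_contra hcon
  refine hns ⟨(Fact.out : p.Prime).odd_of_ne_two hp, fun h => ?_, fun A P hA hP hAP _ _ hq => ?_⟩
  · rw [pPrimePCore, h, MonoidHom.comap_bot, QuotientGroup.ker_mk'] at hO
    exact lt_irrefl _ hO
  · set N := Subgroup.normalizer (P : Set (G ⧸ pPrimeCore p G)) with hN
    have hPN : P ≤ N := Subgroup.le_normalizer
    have hst := H6.isPStableOn_pgroup_of_not_involves (G := N) hp
      (fun h' => hcon ((H6.involves_top_iff.mp h').mono le_top)) (P.subgroupOf N)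
      (H5.isPGroup_subgroupOf hP N)
    have hC : (Subgroup.centralizer (P : Set (G ⧸ pPrimeCore p G))).subgroupOf N =
        Subgroup.centralizer (P.subgroupOf N : Set N) := by
      ext x
      rw [Subgroup.mem_subgroupOf]
      exact ⟨fun h y hy => Subtype.ext (h _ hy),
        fun h y hy => congrArg Subtype.val (h ⟨y, hPN hy⟩ hy)⟩
    rintro _ ⟨a, ha, rfl⟩
    have h1 := hst a (by
      apply Subgroup.map_injective N.subtype_injective
      rw [Subgroup.map_commutator, Subgroup.map_commutator, MonoidHom.map_zpowers,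
        Subgroup.map_bot, Subgroup.subgroupOf_map_subtype, inf_eq_left.mpr hPN, eq_bot_iff, ← hq]
      have hz : Subgroup.zpowers (N.subtype a) ≤ A := Subgroup.zpowers_le.mpr ha
      exact Subgroup.commutator_mono (Subgroup.commutator_mono le_rfl hz) hz)
    have h2 := H5.comap_pCore_eq_of_ker (p := p)
      (QuotientGroup.mk'_surjective (Subgroup.centralizer (P.subgroupOf N : Set N)))
      ((Subgroup.centralizer (P : Set (G ⧸ pPrimeCore p G))).subgroupOf N)
      (by rw [QuotientGroup.ker_mk', hC])
    exact h2.ge h1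

end Cfsg.Agent.S0657
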