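import Cfsg.Statements.S0658
import Cfsg.Agent.H7.ZJ2

set_option autoImplicit false
open Cfsg

namespace Cfsg.Agent.S0658

/-- In a group of characteristic p type all of whose p-locals are p-stable (p odd), the normalizer of Z(J(P)) contains the normalizer of every nontrivial subgroup of the Sylow p-subgroup P. -/
theorem result {G : Type*} [Group G] [Finite G] {p : ℕ} [Fact p.Prime] (hp : p ≠ 2) (hloc : ∀ Q : Subgroup G, IsPGroup p Q → Q ≠ ⊥ → Cfsg.pPrimeCore p ↥(Subgroup.normalizer (Q : Set G)) = ⊥ ∧ Cfsg.IsPConstrained p ↥(Subgroup.normalizer (Q : Set G)) ∧ Cfsg.IsPStable p ↥(Subgroup.normalizer (Q : Set G))) (P : Sylow p G) (Q : Subgroup G) (hQP : Q ≤ (P : Subgroup G)) (hQ1 : Q ≠ ⊥) : Subgroup.normalizer (Q : Set G) ≤ Subgroup.normalizer (Cfsg.centerThompsonAOf ((P : Subgroup G)) : Set G) := by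
  rw [H7.centerThompsonAOf_eq]
  refine H7.normalizer_le_of_local (H5.isSylowOf_top P)
    (Subgroup.le_normalizer.trans (H7.normalizer_le_normalizer_ZJ 0 _)) (H7.ZJ 0)
    (fun R _ => H7.ZJ_le 0 R) (fun R hR h => H7.ZJ_ne_bot (dvd_zero p) (P.isPGroup'.to_le hR) h)
    (fun R _ => H7.normalizer_le_normalizer_ZJ 0 R) ?_ le_rfl hQP hQ1
  intro Q R hQ hQR hRP hR
  obtain ⟨h1, h2, h3⟩ := hloc Q (hR.isPGroup.to_le hQR) hQ
  have h := H7.zj_of_isPStable hp h2 h3 0 (H7.isSylowOf_subgroupOf_top hR)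
  rw [h1, bot_sup_eq, Subgroup.normalizer_eq_top_iff] at h
  exact H7.le_normalizer_ZJ_of_normal hR.le h

end Cfsg.Agent.S0658
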