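import Cfsg.Statements.S0666
import Cfsg.Agent.H5.Maschke
import Cfsg.Agent.H5.FrobKernel

set_option autoImplicit false
open Cfsg

namespace Cfsg.Agent.S0666

/-- A Frobenius group acting on a nontrivial abelian group of order prime to that of its kernel, with the kernel acting without nontrivial fixed points, has a complement with a nontrivial fixed point. -/
theorem result {G : Type*} [Group G] [Finite G] (V F : Subgroup G) (hVab : IsMulCommutative V) (hV1 : V ≠ ⊥) (hFV : F ≤ Subgroup.normalizer (V : Set G)) (H : Subgroup ↥F) (hH : Cfsg.IsFrobeniusComplement H) (hcop : (Nat.card V).Coprime (Nat.card (Cfsg.frobeniusKernel H))) (hCK : V ⊓ Subgroup.centralizer (Subtype.val '' Cfsg.frobeniusKernel H : Set G) = ⊥) : V ⊓ Subgroup.centralizer ((H.map F.subtype : Subgroup G) : Set G) ≠ ⊥ := by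
  obtain ⟨N, hN, e⟩ := H5.exists_frobeniusKernel_eq hH
  rw [← e] at hcop hCK
  refine H5.inf_centralizer_ne_bot_of_frobenius (N := N.map F.subtype) hVab hV1
    ((Subgroup.map_subtype_le _).trans hFV) ((Subgroup.map_subtype_le _).trans hFV)
    (H5.map_le_normalizer_map _ Subgroup.le_normalizer_of_normal) ?_ ?_ hCK
  · rintro _ ⟨h, hh, rfl⟩ h1 _ ⟨n, hn, rfl⟩ e'
    have := H5.frob_eq_one_of_comm hH hh (fun e => h1 (by rw [e]; rfl)) (e ▸ hn) (Subtype.ext e')
    rw [this]; rfl
  · rw [Subgroup.card_map_of_injective F.subtype_injective]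
    exact hcop.symm

end Cfsg.Agent.S0666
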