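import Cfsg.Statements.S0986
import Cfsg.Agent.H8.SylowInt

set_option autoImplicit false
open Cfsg

namespace Cfsg.Agent.S0986

/-- Let P and Q be distinct Sylow p-subgroups of a finite group G chosen so that the order of P ∩ Q is as large as possible among intersections of two distinct Sylow p-subgroups, and let N be the normalizer of P ∩ Q. Then N has more than one Sylow p-subgroup, any two distinct Sylow p-subgroups of N intersect exactly in P ∩ Q, and each Sylow p-subgroup of N lies in exactly one Sylow p-subgroup of G. -/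
theorem result {G : Type*} [Group G] [Finite G] (p : ℕ) [Fact p.Prime] (P Q : Sylow p G) (hPQ : P ≠ Q) (hmax : ∀ P' Q' : Sylow p G, P' ≠ Q' → Nat.card ↥((P' : Subgroup G) ⊓ (Q' : Subgroup G)) ≤ Nat.card ↥((P : Subgroup G) ⊓ (Q : Subgroup G))) : 1 < Nat.card (Sylow p ↥(Subgroup.normalizer (((P : Subgroup G) ⊓ (Q : Subgroup G) : Subgroup G) : Set G))) ∧ (∀ S T : Sylow p ↥(Subgroup.normalizer (((P : Subgroup G) ⊓ (Q : Subgroup G) : Subgroup G) : Set G)), S ≠ T → (S : Subgroup _) ⊓ (T : Subgroup _) = ((P : Subgroup G) ⊓ (Q : Subgroup G)).subgroupOf (Subgroup.normalizer (((P : Subgroup G) ⊓ (Q : Subgroup G) : Subgroup G) : Set G))) ∧ ∀ S : Sylow p ↥(Subgroup.normalizer (((P : Subgroup G) ⊓ (Q : Subgroup G) : Subgroup G) : Set G)), ∃! T : Sylow p G, (S : Subgroup _).map (Subgroup.normalizer (((P : Subgroup G) ⊓ (Q : Subgroup G) : Subgroup G) : Set G)).subtype ≤ (T : Subgroup G) := by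
  classical
  set D : Subgroup G := (P : Subgroup G) ⊓ (Q : Subgroup G) with hD
  set N : Subgroup G := Subgroup.normalizer (D : Set G) with hN
  -- a subgroup larger than `D` lies in at most one Sylow subgroup
  have huniq : ∀ (X : Subgroup G) (T T' : Sylow p G), Nat.card D < Nat.card X →
      X ≤ T → X ≤ T' → T = T' := by
    intro X T T' hX h1 h2
    by_contra hne
    have h3 := hmax T T' hne
    have h4 : Nat.card X ≤ Nat.card ↥((T : Subgroup G) ⊓ (T' : Subgroup G)) :=
      Subgroup.card_le_of_le (le_inf h1 h2)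
    omega
  have hlt : ∀ {X Y : Subgroup G}, X < Y → Nat.card X < Nat.card Y := by
    intro X Y h
    refine lt_of_le_of_ne (Subgroup.card_le_of_le h.le) fun h' => h.ne ?_
    exact Subgroup.eq_of_le_of_card_ge h.le h'.ge
  have hP : D < N ⊓ P := H8.lt_normalizer_inf P.isPGroup' (H8.sylow_inf_lt hPQ)
  have hQ : D < N ⊓ Q := H8.lt_normalizer_inf Q.isPGroup' (by
    rw [hD, inf_comm]; exact H8.sylow_inf_lt hPQ.symm)
  have hex : ∀ S : Sylow p N, ∃ T : Sylow p G, (S : Subgroup N).map N.subtype ≤ T :=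
    fun S => (S.isPGroup'.map N.subtype).exists_le_sylow
  have hin : ∀ T : Sylow p G, ∃ S : Sylow p N, N ⊓ T ≤ (S : Subgroup N).map N.subtype := by
    intro T
    have h1 : IsPGroup p ((T : Subgroup G).subgroupOf N) := T.isPGroup'.comap_subtype
    obtain ⟨S, hS⟩ := h1.exists_le_sylow
    exact ⟨S, fun x hx => ⟨⟨x, hx.1⟩, hS hx.2, rfl⟩⟩
  obtain ⟨S₁, hS₁⟩ := hin P
  obtain ⟨S₂, hS₂⟩ := hin Q
  have hcard : ∀ S : Sylow p N, Nat.card D < Nat.card ((S : Subgroup N).map N.subtype) := by
    intro S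
    have h1 : Nat.card ((S : Subgroup N).map N.subtype) =
        Nat.card ((S₁ : Subgroup N).map N.subtype) := by
      rw [Subgroup.card_map_of_injective N.subtype_injective,
        Subgroup.card_map_of_injective N.subtype_injective, S.card_eq_multiplicity,
        S₁.card_eq_multiplicity]
    rw [h1]
    exact hlt (lt_of_lt_of_le hP hS₁)
  refine ⟨?_, ?_, ?_⟩
  · have hne : S₁ ≠ S₂ := by
      intro h
      obtain ⟨T, hT⟩ := hex S₁
      have h1 : T = P := huniq _ T P (hlt hP) (hS₁.trans hT) inf_le_right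
      have h2 : T = Q := huniq _ T Q (hlt hQ) (hS₂.trans (h ▸ hT)) inf_le_right
      exact hPQ (h1.symm.trans h2)
    have : Nontrivial (Sylow p N) := ⟨⟨S₁, S₂, hne⟩⟩
    exact Finite.one_lt_card
  · intro S T hST
    have hDN : D ≤ N := Subgroup.le_normalizer
    have hnormal : (D.subgroupOf N).Normal := Subgroup.normal_in_normalizer
    have hDp : IsPGroup p (D.subgroupOf N) := (P.isPGroup'.to_inf_left).comap_subtype
    have hle : D.subgroupOf N ≤ (S : Subgroup N) ⊓ (T : Subgroup N) :=
      le_inf (hDp.le_sylow_of_normal S) (hDp.le_sylow_of_normal T)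
    symm
    apply Subgroup.eq_of_le_of_card_ge hle
    obtain ⟨P', hP'⟩ := hex S
    obtain ⟨Q', hQ'⟩ := hex T
    have hmax' : ∀ (S : Sylow p N) (P' : Sylow p G), (S : Subgroup N).map N.subtype ≤ P' →
        (P' : Subgroup G).subgroupOf N = S := by
      intro S P' h
      exact S.is_maximal' P'.isPGroup'.comap_subtype (fun x hx => h ⟨x, hx, rfl⟩)
    have hne : P' ≠ Q' := by
      intro h
      apply hST
      apply Sylow.ext
      rw [← hmax' S P' hP', ← hmax' T Q' hQ', h]
    have h1 := hmax P' Q' hne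
    have h2 : Nat.card ↥((S : Subgroup N) ⊓ (T : Subgroup N)) ≤
        Nat.card ↥((P' : Subgroup G) ⊓ (Q' : Subgroup G)) := by
      rw [← Subgroup.card_map_of_injective N.subtype_injective]
      apply Subgroup.card_le_of_le
      rintro _ ⟨x, hx, rfl⟩
      exact ⟨hP' ⟨x, hx.1, rfl⟩, hQ' ⟨x, hx.2, rfl⟩⟩
    rw [Nat.card_congr (Subgroup.subgroupOfEquivOfLe hDN).toEquiv]
    omega
  · intro S
    obtain ⟨T, hT⟩ := hex S
    exact ⟨T, hT, fun T' hT' => huniq _ T' T (hcard S) hT' hT⟩

end Cfsg.Agent.S0986
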