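import Cfsg.Statements.S0987
import Cfsg.Agent.H8.PrimeSylow

set_option autoImplicit false
open Cfsg

namespace Cfsg.Agent.S0987

/-- If a finite group has order pqr for primes p < q < r, then its Sylow r-subgroups are normal. -/
theorem result {G : Type*} [Group G] [Finite G] (p q r : ℕ) (hp : p.Prime) (hq : q.Prime) [Fact r.Prime] (hpq : p < q) (hqr : q < r) (hG : Nat.card G = p * q * r) (R : Sylow r G) : (R : Subgroup G).Normal := by
  have hr : r.Prime := Fact.out
  have : Fact p.Prime := ⟨hp⟩
  have hmin : (Nat.card G).minFac = p := by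
    rw [hG]
    apply le_antisymm (Nat.minFac_le_of_dvd hp.two_le ⟨q * r, by ring⟩)
    have h1 : (p * q * r).minFac.Prime := Nat.minFac_prime (by
      have := hp.two_le; have := hq.two_le; have := hr.two_le
      intro h
      have h2 := Nat.eq_one_of_mul_eq_one_left h
      omega)
    have h2 := Nat.minFac_dvd (p * q * r)
    rcases (Nat.Prime.dvd_mul h1).mp h2 with h3 | h3
    · rcases (Nat.Prime.dvd_mul h1).mp h3 with h4 | h4
      · exact ((Nat.prime_dvd_prime_iff_eq h1 hp).mp h4).ge
      · rw [(Nat.prime_dvd_prime_iff_eq h1 hq).mp h4]; omega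
    · rw [(Nat.prime_dvd_prime_iff_eq h1 hr).mp h3]; omega
  obtain ⟨P⟩ := (Sylow.nonempty : Nonempty (Sylow p G))
  have hcop : ∀ {a b : ℕ}, a.Prime → b.Prime → a ≠ b → ¬ a ∣ b :=
    fun ha hb hab h => hab ((Nat.prime_dvd_prime_iff_eq ha hb).mp h)
  have hPc : Nat.card (P : Subgroup G) = p := by
    rw [P.card_eq_multiplicity, hG, Nat.factorization_mul (Nat.mul_ne_zero hp.ne_zero hq.ne_zero)
      hr.ne_zero, Nat.factorization_mul hp.ne_zero hq.ne_zero, hp.factorization, hq.factorization,
      hr.factorization]
    simp [hpq.ne', (hpq.trans hqr).ne']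
  have hcyc : IsCyclic (P : Subgroup G) := isCyclic_of_prime_card hPc
  have hc := IsCyclic.isComplement' hmin hcyc
  set K := (MonoidHom.transferSylow P (hcyc.normalizer_le_centralizer hmin)).ker
  have hK : Nat.card K = q * r := by
    have h1 := hc.card_mul
    rw [hPc, hG] at h1
    apply Nat.eq_of_mul_eq_mul_right hp.pos
    rw [h1]; ring
  obtain ⟨S⟩ := (Sylow.nonempty : Nonempty (Sylow r K))
  have hSc : Nat.card (S : Subgroup K) = r := by
    rw [S.card_eq_multiplicity, hK, Nat.factorization_mul hq.ne_zero hr.ne_zero,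
      hq.factorization, hr.factorization]
    simp [hqr.ne]
  have hSi : (S : Subgroup K).index = q := by
    have h1 := (S : Subgroup K).index_mul_card
    rw [hSc, hK] at h1
    exact Nat.eq_of_mul_eq_mul_right hr.pos h1
  have hn : Nat.card (Sylow r K) = 1 := by
    have h1 := S.card_dvd_index
    rw [hSi] at h1
    rcases (Nat.dvd_prime hq).mp h1 with h2 | h2
    · exact h2
    · exfalso
      have h3 := card_sylow_modEq_one r K
      rw [h2] at h3
      have h4 := (Nat.modEq_iff_dvd' hq.one_lt.le).mp h3.symm
      have h5 := Nat.le_of_dvd (by have := hq.two_le; omega) h4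
      omega
  have : Subsingleton (Sylow r K) := (Nat.card_eq_one_iff_unique.mp hn).1
  have hchar : (S : Subgroup K).Characteristic := inferInstance
  have hnormal : ((S : Subgroup K).map K.subtype).Normal := inferInstance
  have hSp : IsPGroup r ((S : Subgroup K).map K.subtype) := S.isPGroup'.map _
  have hle := hSp.le_sylow_of_normal R
  have hRc : Nat.card (R : Subgroup G) = r := by
    rw [R.card_eq_multiplicity, hG, Nat.factorization_mul (Nat.mul_ne_zero hp.ne_zero hq.ne_zero)
      hr.ne_zero, Nat.factorization_mul hp.ne_zero hq.ne_zero, hp.factorization, hq.factorization,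
      hr.factorization]
    simp [hqr.ne, (hpq.trans hqr).ne]
  have heq := Subgroup.eq_of_le_of_card_ge hle (by
    rw [Subgroup.card_map_of_injective K.subtype_injective, hSc, hRc])
  rw [← heq]
  exact hnormal

end Cfsg.Agent.S0987
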