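import Cfsg.Statements.S0988
import Cfsg.Agent.H8.N5400
import Cfsg.Agent.H8.Char4

set_option autoImplicit false
open Cfsg

namespace Cfsg.Agent.S0988

/-- Numerical Burnside condition for a prime `s` with `s ^ a` exactly dividing the order, `a ≤ 2`. -/
theorem aux {G : Type*} [Group G] [Finite G] [IsSimpleGroup G] (hG : ¬ IsMulCommutative G)
    {s a m : ℕ} (hs : s.Prime) (ha : 0 < a) (ha2 : a ≤ 2) (hm : ¬ s ∣ m)
    (h : Nat.card G = s ^ a * m) :
    ∃ t j : ℕ, t.Prime ∧ t ≠ s ∧ 1 ≤ j ∧ j ≤ a ∧ t ∣ s ^ j - 1 ∧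
      Nat.card (Sylow s G) * t ∣ m := by
  haveI : Fact s.Prime := ⟨hs⟩
  obtain ⟨P⟩ : Nonempty (Sylow s G) := inferInstance
  have hP : Nat.card (P : Subgroup G) = s ^ a := by
    rw [Sylow.card_eq_multiplicity, h, H8.factorization_eq_of_pow_mul hs hm]
  have hab : IsMulCommutative (P : Subgroup G) := by
    rcases (show a = 1 ∨ a = 2 by omega) with rfl | rfl
    · haveI : IsCyclic (P : Subgroup G) := isCyclic_of_prime_card (p := s) (by simpa using hP)
      infer_instance
    · exact IsPGroup.isMulCommutative_of_card_eq_prime_sq hP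
  obtain ⟨t, j, h1, h2, h3, h4, h5, h6⟩ := H8.exists_prime_of_abelian_sylow hG P hP ha hab
  refine ⟨t, j, h1, h2, h3, h4, h5, ?_⟩
  rw [h, mul_right_comm, mul_comm] at h6
  exact Nat.dvd_of_mul_dvd_mul_left (pow_pos hs.pos a) h6

theorem main {G : Type*} [Group G] [Finite G] [IsSimpleGroup G] (p q r : ℕ) (hp : p.Prime)
    (hq : q.Prime) (hr : r.Prime) (hG : Nat.card G = p ^ 2 * q * r) (hqr : q ≤ r) :
    Nat.card G = 60 := by
  have hp2 := hp.two_le
  have hq2 := hq.two_le
  have hr2 := hr.two_le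
  have hnc : ¬ IsMulCommutative G := by
    apply H8.not_comm_of_card_not_prime
    rw [hG]
    exact Nat.not_prime_mul (by nlinarith [Nat.pow_le_pow_left hp2 2]) (by omega)
  have hB := fun (a b : ℕ) (ha : a.Prime) (hb : b.Prime) i j =>
    H8.card_ne_prime_pow_mul_prime_pow hnc ha hb i j
  have hpq : p ≠ q := by
    rintro rfl
    exact hB p r hp hr 3 1 (by rw [hG]; exact Dvd.intro 1 (by ring))
  have hpr : p ≠ r := by
    rintro rfl
    exact hB p q hp hq 3 1 (by rw [hG]; exact Dvd.intro 1 (by ring))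
  have hqr' : q ≠ r := by
    rintro rfl
    exact hB p q hp hq 2 2 (by rw [hG]; exact Dvd.intro 1 (by ring))
  have hdv : ∀ {t a b : ℕ}, t.Prime → a.Prime → b.Prime → t ∣ a ^ 2 * b → t = a ∨ t = b := by
    intro t a b ht ha hb h
    rcases (Nat.Prime.dvd_mul ht).mp h with h | h
    · exact Or.inl ((Nat.prime_dvd_prime_iff_eq ht ha).mp (ht.dvd_of_dvd_pow h))
    · exact Or.inr ((Nat.prime_dvd_prime_iff_eq ht hb).mp h)
  -- the prime `q`
  obtain ⟨t, j, ht, htq, hj1, hj2, htd, hd⟩ := aux hnc (s := q) (a := 1) (m := p ^ 2 * r) hq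
    one_pos (by norm_num) (fun h => by rcases hdv hq hp hr h with h | h <;> omega)
    (by rw [hG]; ring)
  obtain rfl : j = 1 := by omega
  rw [pow_one] at htd
  have htlt : t < q := by have := Nat.le_of_dvd (by omega) htd; omega
  have hpq' : p < q := by
    rcases hdv ht hp hr (Dvd.dvd.trans (Dvd.intro_left _ rfl) hd) with h | h <;> omega
  -- the prime `p`
  obtain ⟨t, j, ht, htp, hj1, hj2, htd, hd⟩ := aux hnc (s := p) (a := 2) (m := q * r) hp
    two_pos le_rfl (fun h => by
      rcases (Nat.Prime.dvd_mul hp).mp h with h | h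
      · exact hpq ((Nat.prime_dvd_prime_iff_eq hp hq).mp h)
      · exact hpr ((Nat.prime_dvd_prime_iff_eq hp hr).mp h))
    (by rw [hG]; ring)
  have htq : t = q ∨ t = r := by
    rcases (Nat.Prime.dvd_mul ht).mp (Dvd.dvd.trans (Dvd.intro_left _ rfl) hd) with h | h
    · exact Or.inl ((Nat.prime_dvd_prime_iff_eq ht hq).mp h)
    · exact Or.inr ((Nat.prime_dvd_prime_iff_eq ht hr).mp h)
  have htp1 : t = p + 1 := by
    rcases (show j = 1 ∨ j = 2 by omega) with rfl | rfl
    · rw [pow_one] at htd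
      have := Nat.le_of_dvd (by omega) htd; omega
    · have e : p ^ 2 - 1 = (p + 1) * (p - 1) := by
        rw [← Nat.sq_sub_sq, one_pow]
      rw [e] at htd
      rcases (Nat.Prime.dvd_mul ht).mp htd with h | h
      · have := Nat.le_of_dvd (by omega) h; omega
      · have := Nat.le_of_dvd (by omega) h; omega
  have hp' : p = 2 := by
    rcases hp.eq_two_or_odd with h | h
    · exact h
    · rcases ht.eq_two_or_odd with h' | h' <;> omega
  have hq' : q = 3 := by omega
  subst hp' hq'
  -- the prime `r`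
  have hr5 : 5 ≤ r := by
    by_contra h
    have : r = 4 := by omega
    subst this
    norm_num at hr
  obtain ⟨t, j, ht, htr, hj1, hj2, htd, hd⟩ := aux hnc (s := r) (a := 1) (m := 12) hr
    one_pos (by norm_num) (fun h => by
      rcases hdv hr Nat.prime_two Nat.prime_three (by simpa using h) with h | h <;> omega)
    (by rw [hG]; ring)
  haveI : Fact r.Prime := ⟨hr⟩
  have h1 := card_sylow_modEq_one r G
  have h2 := H8.card_sylow_ne_one hnc (p := r) (by rw [hG]; exact Dvd.intro_left _ rfl)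
  have h3 : 0 < Nat.card (Sylow r G) := Nat.card_pos
  have h4 : r ∣ Nat.card (Sylow r G) - 1 := (Nat.modEq_iff_dvd' h3).mp h1.symm
  have h5 := Nat.le_of_dvd (by omega) h4
  have h6 := Nat.le_of_dvd (by norm_num) hd
  have h7 := ht.two_le
  have h8 : Nat.card (Sylow r G) ≤ 6 := by nlinarith
  have : r = 5 := by omega
  rw [hG, this]; norm_num


/-- If a finite simple group has order p^2 * q * r with p, q and r prime, then its order is 60. -/
theorem result {G : Type*} [Group G] [Finite G] [IsSimpleGroup G] (p q r : ℕ) (hp : p.Prime) (hq : q.Prime) (hr : r.Prime) (hG : Nat.card G = p ^ 2 * q * r) : Nat.card G = 60 := by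
  rcases le_total q r with h | h
  · exact main p q r hp hq hr hG h
  · exact main p r q hp hr hq (by rw [hG]; ring) h

end Cfsg.Agent.S0988
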