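import Cfsg.Statements.S0995
import Cfsg.Agent.H8.PrimeSylow

set_option autoImplicit false
open Cfsg

namespace Cfsg.Agent.S0995

/-- Let G be a finite perfect group containing an element z of prime order p whose centralizer is the cyclic group it generates. Let t be the number of conjugacy classes of elements of order p. Then t divides p - 1, the number of Sylow p-subgroups has the form 1 + n * p, and |G| * t = (p - 1) * p * (1 + n * p). -/
theorem result {G : Type*} [Group G] [Finite G] (hperf : commutator G = ⊤) (p : ℕ) [Fact p.Prime] (z : G) (hz : orderOf z = p) (hC : Subgroup.centralizer ({z} : Set G) = Subgroup.zpowers z) : ∃ n t : ℕ, t = Nat.card {c : ConjClasses G // ∃ g : G, ConjClasses.mk g = c ∧ orderOf g = p} ∧ t ∣ p - 1 ∧ Nat.card (Sylow p G) = 1 + n * p ∧ Nat.card G * t = (p - 1) * p * (1 + n * p) := by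
  classical
  have hp : p.Prime := Fact.out
  have hz1 : z ≠ 1 := by
    rintro rfl
    rw [orderOf_one] at hz
    exact hp.one_lt.ne hz
  have hZ : Nat.card (Subgroup.zpowers z) = p := by rw [Nat.card_zpowers, hz]
  have h1 : IsPGroup p (Subgroup.zpowers z) := IsPGroup.of_card (n := 1) (by rw [hZ, pow_one])
  obtain ⟨P, hP⟩ := h1.exists_le_sylow
  have hPz : (P : Subgroup G) = Subgroup.zpowers z := by
    apply le_antisymm _ hP
    have : Nontrivial (P : Subgroup G) :=
      ⟨⟨⟨z, hP (Subgroup.mem_zpowers z)⟩, 1, fun h => hz1 (congrArg Subtype.val h)⟩⟩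
    obtain ⟨⟨c, hc⟩, hc1⟩ := (Subgroup.ne_bot_iff_exists_ne_one).mp P.isPGroup'.bot_lt_center.ne'
    have hc1' : (c : G) ≠ 1 := fun h => hc1 (Subtype.ext (Subtype.ext h))
    have hcomm : ∀ x ∈ (P : Subgroup G), x * c = c * x := fun x hx =>
      congrArg Subtype.val (Subgroup.mem_center_iff.mp hc ⟨x, hx⟩)
    have hcz : (c : G) ∈ Subgroup.zpowers z := by
      rw [← hC, Subgroup.mem_centralizer_singleton_iff]
      exact (hcomm z (hP (Subgroup.mem_zpowers z))).symm
    intro x hx
    rw [← hC, ← H8.centralizer_zpowers, ← H8.zpowers_eq_of_mem_of_card_prime hZ hcz hc1',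
      H8.centralizer_zpowers, Subgroup.mem_centralizer_singleton_iff]
    exact hcomm x hx
  have hPc : Nat.card (P : Subgroup G) = p := hPz ▸ hZ
  -- centralizers of elements of order `p`
  have hcent : ∀ y : G, orderOf y = p → Nat.card (Subgroup.centralizer ({y} : Set G)) = p := by
    intro y hy
    obtain ⟨g, hg⟩ := H8.exists_conj_mem_sylow P (k := 1) (by rw [hy, pow_one])
    have hconj : IsConj y (g⁻¹ * y * g) := isConj_iff.mpr ⟨g⁻¹, by simp⟩
    have h2 : g⁻¹ * y * g ≠ 1 := by
      intro h
      rw [h, isConj_one_left] at hconj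
      rw [hconj, orderOf_one] at hy
      exact hp.one_lt.ne hy
    have h3 : Subgroup.centralizer ({g⁻¹ * y * g} : Set G) = Subgroup.zpowers z := by
      rw [← H8.centralizer_zpowers, H8.zpowers_eq_of_mem_of_card_prime hPc hg h2, hPz,
        H8.centralizer_zpowers, hC]
    have h4 := H8.card_centralizer_mul_card_conj y
    have h5 := H8.card_centralizer_mul_card_conj (g⁻¹ * y * g)
    have h6 : Nat.card {w : G // IsConj (g⁻¹ * y * g) w} = Nat.card {w : G // IsConj y w} :=
      Nat.card_congr (Equiv.subtypeEquivRight fun w =>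
        ⟨fun h => hconj.trans h, fun h => hconj.symm.trans h⟩)
    rw [h3, hZ, h6, ← h4] at h5
    have : 0 < Nat.card {w : G // IsConj y w} := Nat.card_pos_iff.mpr ⟨⟨⟨y, IsConj.refl y⟩⟩,
      inferInstance⟩
    exact (Nat.eq_of_mul_eq_mul_right this h5).symm
  set T := {c : ConjClasses G // ∃ g : G, ConjClasses.mk g = c ∧ orderOf g = p}
  have hcount : Nat.card {y : G // orderOf y = p} * p = Nat.card T * Nat.card G := by
    let f : {y : G // orderOf y = p} → T := fun y => ⟨ConjClasses.mk y.1, y.1, rfl, y.2⟩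
    have := Fintype.ofFinite T
    rw [Nat.card_congr (Equiv.sigmaFiberEquiv f).symm, Nat.card_sigma,
      Nat.card_eq_fintype_card (α := T), ← Finset.card_univ,
      ← smul_eq_mul (Finset.univ.card), ← Finset.sum_const, Finset.sum_mul]
    refine Finset.sum_congr rfl fun c _ => ?_
    obtain ⟨c, g, rfl, hg⟩ := c
    rw [← H8.card_centralizer_mul_card_conj g, hcent g hg, mul_comm]
    congr 1
    refine Nat.card_congr
      { toFun := fun y => ⟨y.1.1, ?_⟩
        invFun := fun w => ⟨⟨w.1, ?_⟩, ?_⟩
        left_inv := fun z => rfl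
        right_inv := fun g => rfl }
    · have h2 : ConjClasses.mk y.1.1 = ConjClasses.mk g := congrArg Subtype.val y.2
      exact (ConjClasses.mk_eq_mk_iff_isConj.mp h2).symm
    · rw [← hg]
      obtain ⟨c, hc⟩ := isConj_iff.mp w.2
      rw [← hc]
      exact (MulAut.conj c).orderOf_eq g
    · exact Subtype.ext (ConjClasses.mk_eq_mk_iff_isConj.mpr w.2.symm)
  rw [H8.card_orderOf_eq_prime P hPc] at hcount
  have hmod := card_sylow_modEq_one p G
  have hpos : 0 < Nat.card (Sylow p G) := Nat.card_pos
  obtain ⟨n, hn⟩ := (Nat.modEq_iff_dvd' hpos).mp hmod.symm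
  have hn' : Nat.card (Sylow p G) = 1 + n * p := by rw [mul_comm n p]; omega
  refine ⟨n, Nat.card T, rfl, ?_, hn', ?_⟩
  · have hab : IsMulCommutative (P : Subgroup G) := (isCyclic_of_prime_card hPc).isMulCommutative
    have h2 := H8.card_eq_card_sylow_mul P hab
    rw [hPc] at h2
    set a := (P : Subgroup G).relIndex (Subgroup.centralizer ((P : Subgroup G) : Set G))
    set b := (Subgroup.centralizer ((P : Subgroup G) : Set G)).relIndex
      (Subgroup.normalizer ((P : Subgroup G) : Set G))
    refine ⟨a * b, ?_⟩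
    apply Nat.eq_of_mul_eq_mul_left (Nat.mul_pos hpos hp.pos)
    rw [h2] at hcount
    linarith
  · rw [← hn', mul_comm (Nat.card G), ← hcount]
    ring

end Cfsg.Agent.S0995
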