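import Cfsg.Statements.S1002
import Cfsg.Agent.H8.Sieve

set_option autoImplicit false
open Cfsg

namespace Cfsg.Agent.S1002

/-- No finite simple group has order 1004913 = 3^3 * 7 * 13 * 409. -/
theorem result {G : Type*} [Group G] [Finite G] [IsSimpleGroup G] : Nat.card G ≠ 1004913 := by
  intro h
  exact H8.card_ne_of_killP (H8.not_comm_of_card_eq h (a := 409) (b := 2457) (by norm_num) (by norm_num)
    (by norm_num)) (B := 1003) (p := 409) (by decide +kernel) h

end Cfsg.Agent.S1002
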