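import Cfsg.Statements.S1008
import Cfsg.Agent.H9.G168b

set_option autoImplicit false
open Cfsg
open H9 Subgroup

namespace Cfsg.Agent.S1008

/-- In a simple group of order 168 every maximal subgroup is either isomorphic to the symmetric group of degree 4 or non-abelian of order 21; the maximal subgroups of order 21 form one conjugacy class and those isomorphic to the symmetric group of degree 4 form exactly two conjugacy classes. -/
theorem result {G : Type*} [Group G] [Finite G] [IsSimpleGroup G] (h : Nat.card G = 168) : (∀ M : Subgroup G, IsCoatom M → Nonempty (↥M ≃* Equiv.Perm (Fin 4)) ∨ (Nat.card ↥M = 21 ∧ ¬ IsMulCommutative ↥M)) ∧ (∀ M M' : Subgroup G, IsCoatom M → IsCoatom M' → Nat.card ↥M = 21 → Nat.card ↥M' = 21 → ∃ g : G, M' = M.map (MulAut.conj g).toMonoidHom) ∧ ∃ M₁ M₂ : Subgroup G, IsCoatom M₁ ∧ IsCoatom M₂ ∧ Nonempty (↥M₁ ≃* Equiv.Perm (Fin 4)) ∧ Nonempty (↥M₂ ≃* Equiv.Perm (Fin 4)) ∧ (∀ g : G, M₂ ≠ M₁.map (MulAut.conj g).toMonoidHom) ∧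 ∀ M : Subgroup G, IsCoatom M → Nonempty (↥M ≃* Equiv.Perm (Fin 4)) → ∃ g : G, M = M₁.map (MulAut.conj g).toMonoidHom ∨ M = M₂.map (MulAut.conj g).toMonoidHom := by
  have : Fact (Nat.Prime 7) := ⟨by norm_num⟩
  have : Fact (Nat.Prime 3) := ⟨by norm_num⟩
  have : Fact (Nat.Prime 2) := ⟨by norm_num⟩
  have hperf := G168.perf h
  have eqN : ∀ M : Subgroup G, IsCoatom M → ∀ x : G, orderOf x = 7 → M ≤ Nor x → M = Nor x := by
    intro M hM x hx hle
    by_contra hne
    exact Nor_ne_top (ne_one_of_orderOf hx (by norm_num)) (hM.2 _ (lt_of_le_of_ne hle hne))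
  have eqK : ∀ M : Subgroup G, IsCoatom M → ∀ U : Subgroup G, IsKleinFour U →
      M ≤ normalizer (U : Set G) → M = normalizer (U : Set G) := by
    intro M hM U hU hle
    by_contra hne
    exact (G168.klein_coatom h hU).1 (hM.2 _ (lt_of_le_of_ne hle hne))
  refine ⟨fun M hM => ?_, fun M M' hM hM' h1 h2 => ?_, ?_⟩
  · rcases G168.le_max h hM.1 with ⟨x, hx, hle⟩ | ⟨U, hU, hle⟩
    · right
      rw [eqN M hM x hx hle]
      refine ⟨(G168.seven h hx).2.1, fun hc => ?_⟩
      obtain ⟨y, hy, oy⟩ := exists_mem_orderOf (Nor x) 3 (by rw [(G168.seven h hx).2.1]; norm_num)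
      have h1 : y ∈ Cen x := mem_Cen.2 (congrArg Subtype.val
        (hc.1.1 ⟨x, Cen_le_Nor x (self_mem_Cen x)⟩ ⟨y, hy⟩))
      have := orderOf_dvd_card_of_mem h1
      rw [oy, (G168.seven h hx).1] at this
      omega
    · left
      rw [eqK M hM U hU hle]
      exact G168.klein_iso h hU
  · obtain ⟨x, hx, hle⟩ := G168.le_Nor_of_seven h hM.1 (by rw [h1]; norm_num)
    obtain ⟨x', hx', hle'⟩ := G168.le_Nor_of_seven h hM'.1 (by rw [h2]; norm_num)
    rw [eqN M hM x hx hle, eqN M' hM' x' hx' hle']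
    exact exists_Nor_eq_map_conj (m := 24) h (by norm_num) hx' hx
  · obtain ⟨T⟩ : Nonempty (Sylow 2 G) := inferInstance
    obtain ⟨U₁, U₂, hne, hU⟩ := G168.two_kleins h T
    obtain ⟨a1, b1⟩ := (hU U₁).2 (Or.inl rfl)
    obtain ⟨a2, b2⟩ := (hU U₂).2 (Or.inr rfl)
    refine ⟨_, _, G168.klein_coatom h b1, G168.klein_coatom h b2, G168.klein_iso h b1,
      G168.klein_iso h b2, fun g e => ?_, fun M hM ⟨e⟩ => ?_⟩
    · rw [← normalizer_map_conj] at e
      exact G168.kleins_not_conj h T a1 a2 b1 b2 hne g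
        (G168.klein_eq_of_normalizer h b2 (klein_map_conj b1 g) e).symm
    · obtain ⟨U, hU', hle⟩ := G168.le_klein_of_iso h e
      rw [eqK M hM U hU' hle]
      obtain ⟨g, hg⟩ := exists_conj_le_sylow T
        (IsPGroup.of_card (p := 2) (n := 2) (G := U) hU'.card_four)
      have h1 : U.map (MulAut.conj g).toMonoidHom ≤ T := by
        rintro _ ⟨u, hu, rfl⟩
        exact hg u hu
      refine ⟨g⁻¹, ?_⟩
      rcases (hU _).1 ⟨h1, klein_map_conj hU' g⟩ with e | e
      · left
        rw [← normalizer_map_conj, ← e, map_conj_map_conj, inv_mul_cancel, map_conj_one]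
      · right
        rw [← normalizer_map_conj, ← e, map_conj_map_conj, inv_mul_cancel, map_conj_one]

end Cfsg.Agent.S1008
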