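import Cfsg.Statements.S1009
import Cfsg.Agent.H8.SylowInt

set_option autoImplicit false
open Cfsg

namespace Cfsg.Agent.S1009

/-- Brodkey's Theorem: if a finite group has abelian Sylow p-subgroups, then there are two Sylow p-subgroups whose intersection equals the intersection of all Sylow p-subgroups. -/
theorem result {G : Type*} [Group G] [Finite G] (p : ℕ) [Fact p.Prime] (hab : ∀ P : Sylow p G, IsMulCommutative ↥(P : Subgroup G)) : ∃ P Q : Sylow p G, (P : Subgroup G) ⊓ (Q : Subgroup G) = ⨅ R : Sylow p G, (R : Subgroup G) := by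
  classical
  have : Finite (Sylow p G) := inferInstance
  obtain ⟨⟨P, Q⟩, -, hmin⟩ := Set.exists_min_image (Set.univ : Set (Sylow p G × Sylow p G))
    (fun x => Nat.card ↥((x.1 : Subgroup G) ⊓ (x.2 : Subgroup G))) (Set.toFinite _)
    ⟨(default, default), trivial⟩
  refine ⟨P, Q, le_antisymm (le_iInf fun R => ?_) (le_inf (iInf_le _ P) (iInf_le _ Q))⟩
  set D : Subgroup G := (P : Subgroup G) ⊓ (Q : Subgroup G) with hD
  have hN : ∀ S : Sylow p G, D ≤ S → (S : Subgroup G) ≤ Subgroup.normalizer (D : Set G) := by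
    intro S hS
    refine le_trans (fun x hx => ?_) (Subgroup.centralizer_le_normalizer (D : Set G))
    rw [Subgroup.mem_centralizer_iff]
    intro h hh
    have := (hab S).is_comm.comm ⟨h, hS hh⟩ ⟨x, hx⟩
    exact congrArg Subtype.val this
  obtain ⟨n, hn, hle⟩ := H8.exists_conj_le_sylow_of_le P (hN P inf_le_left)
    (R := (R : Subgroup G) ⊓ Subgroup.normalizer (D : Set G)) R.isPGroup'.to_inf_left inf_le_right
  have hmem : ∀ (S : Sylow p G) (g x : G), x ∈ ((g • S : Sylow p G) : Subgroup G) ↔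
      g⁻¹ * x * g ∈ (S : Subgroup G) := by
    intro S g x
    rw [Sylow.coe_subgroup_smul, Subgroup.mem_pointwise_smul_iff_inv_smul_mem]
    simp [mul_assoc]
  have h1 : ((n⁻¹ • R : Sylow p G) : Subgroup G) ⊓ (Q : Subgroup G) ≤ D := by
    intro x hx
    refine ⟨?_, hx.2⟩
    have hx1 := (hmem R n⁻¹ x).mp hx.1
    have hx2 : n⁻¹⁻¹ * x * n⁻¹ ∈ Subgroup.normalizer (D : Set G) :=
      Subgroup.mul_mem _ (Subgroup.mul_mem _ (by simpa using hn) (hN Q inf_le_right hx.2))
        (Subgroup.inv_mem _ hn)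
    have := (hmem P n _).mp (hle ⟨hx1, hx2⟩)
    have e : n⁻¹ * (n⁻¹⁻¹ * x * n⁻¹) * n = x := by group
    rw [e] at this
    exact this
  have h2 := hmin (n⁻¹ • R, Q) trivial
  have h3 : ((n⁻¹ • R : Sylow p G) : Subgroup G) ⊓ (Q : Subgroup G) = D :=
    Subgroup.eq_of_le_of_card_ge h1 h2
  intro x hx
  have hx1 : n⁻¹ * x * n ∈ D := by
    have := (Subgroup.mem_normalizer_iff.mp (Subgroup.inv_mem _ hn) x).mp hx
    simpa using this
  rw [← h3] at hx1
  have := (hmem R n⁻¹ _).mp hx1.1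
  simpa [mul_assoc] using this

end Cfsg.Agent.S1009
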