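import Cfsg.Statements.S1013
import Cfsg.Agent.H8.PermSylow

set_option autoImplicit false
open Cfsg

namespace Cfsg.Agent.S1013

/-- Let G be a transitive permutation group of prime degree p having more than one Sylow p-subgroup, and suppose a Sylow p-subgroup P has prime index in its normalizer. Then G is simple. -/
theorem result {α : Type*} [Fintype α] [DecidableEq α] {p : ℕ} [Fact p.Prime] (hα : Fintype.card α = p) (G : Subgroup (Equiv.Perm α)) [MulAction.IsPretransitive ↥G α] (P : Sylow p ↥G) (hn : 1 < Nat.card (Sylow p ↥G)) (ht : (((P : Subgroup ↥G).subgroupOf (Subgroup.normalizer ((P : Subgroup ↥G) : Set ↥G))).index).Prime) : IsSimpleGroup ↥G := by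
  classical
  have hp : p.Prime := Fact.out
  have hα' : Nat.card α = p := by rw [Nat.card_eq_fintype_card, hα]
  have hne : Nonempty α := Fintype.card_pos_iff.mp (hα ▸ hp.pos)
  obtain ⟨a⟩ := hne
  -- a transitive subgroup has order divisible by `p`
  have hdvd : ∀ (H : Type _) [Group H] [MulAction H α] [MulAction.IsPretransitive H α],
      p ∣ Nat.card H := by
    intro H _ _ _
    rw [← hα', ← MulAction.index_stabilizer_of_transitive H a]
    exact Subgroup.index_dvd_card _
  have hPc : Nat.card (P : Subgroup G) = p := by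
    obtain ⟨k, hk⟩ := P.isPGroup'.exists_card_eq
    have h1 : p ^ k ∣ p.factorial := by
      rw [← hk]
      refine (P : Subgroup G).card_subgroup_dvd_card.trans ?_
      have := G.card_subgroup_dvd_card
      rwa [Nat.card_perm, hα'] at this
    have h2 := (hp.pow_dvd_iff_le_factorization (Nat.factorial_ne_zero p)).mp h1
    rw [H8.factorization_factorial_eq_one hp le_rfl (by have := hp.pos; omega)] at h2
    have h3 := P.dvd_card_of_dvd_card (hdvd G)
    rw [hk] at h3 ⊢
    have : k ≠ 0 := by
      rintro rfl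
      exact hp.one_lt.ne' (Nat.dvd_one.mp h3)
    have : k = 1 := by omega
    rw [this, pow_one]
  have hprim : ∀ (H : Type _) [Group H] [MulAction H α] [MulAction.IsPretransitive H α]
      (L : Subgroup H) [L.Normal], (∃ (l : L) (b : α), l • b ≠ b) → p ∣ Nat.card L := by
    intro H _ _ _ L _ ⟨l, b, hlb⟩
    have : MulAction.IsPreprimitive H α := MulAction.IsPreprimitive.of_prime_card (hα' ▸ hp)
    have : MulAction.IsPretransitive L α :=
      MulAction.IsQuasiPreprimitive.isPretransitive_of_normal (fun h => by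
        have : b ∈ MulAction.fixedPoints L α := h ▸ Set.mem_univ b
        exact hlb (this l))
    exact hdvd L
  have hmove : ∀ g : G, g ≠ 1 → ∃ b : α, g • b ≠ b := by
    intro g hg
    by_contra hcon
    push Not at hcon
    exact hg (Subtype.ext (Equiv.ext hcon))
  have hnt : Nontrivial G := by
    rw [← Finite.one_lt_card_iff_nontrivial]
    exact lt_of_lt_of_le hp.one_lt (Nat.le_of_dvd Nat.card_pos (hdvd G))
  refine ⟨fun K hK => ?_⟩
  by_cases hK1 : K = ⊥
  · exact Or.inl hK1
  right
  obtain ⟨⟨k, hk⟩, hk1⟩ := (Subgroup.ne_bot_iff_exists_ne_one).mp hK1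
  obtain ⟨b, hb⟩ := hmove k (fun h => hk1 (Subtype.ext h))
  have hKp : p ∣ Nat.card K := hprim G K ⟨⟨k, hk⟩, b, hb⟩
  have hKt : MulAction.IsPretransitive K α := by
    have : MulAction.IsPreprimitive G α := MulAction.IsPreprimitive.of_prime_card (hα' ▸ hp)
    exact MulAction.IsQuasiPreprimitive.isPretransitive_of_normal (fun h => by
        have : b ∈ MulAction.fixedPoints K α := h ▸ Set.mem_univ b
        exact hb (this ⟨k, hk⟩))
  have hPK : (P : Subgroup G) ≤ K := by
    obtain ⟨y, hy⟩ := exists_prime_orderOf_dvd_card' p hKp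
    have hy' : orderOf (y : G) = p ^ 1 := by rw [Subgroup.orderOf_coe, hy, pow_one]
    obtain ⟨g, hg⟩ := H8.exists_conj_mem_sylow P hy'
    have h1 : g⁻¹ * y * g ≠ 1 := by
      intro h
      have : (y : G) = 1 := by
        calc (y : G) = g * (g⁻¹ * y * g) * g⁻¹ := by group
          _ = 1 := by rw [h]; group
      rw [this, orderOf_one, pow_one] at hy'
      exact hp.one_lt.ne hy'
    rw [← H8.zpowers_eq_of_mem_of_card_prime hPc hg h1, Subgroup.zpowers_le]
    exact hK.conj_mem' _ y.2 g
  set N := Subgroup.normalizer ((P : Subgroup G) : Set G) with hN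
  have hsup : N ⊔ K = ⊤ := Sylow.normalizer_sup_eq_top' P hPK
  have hmul := Subgroup.relIndex_mul_relIndex (P : Subgroup G) (N ⊓ K) N
    (le_inf Subgroup.le_normalizer hPK) inf_le_left
  have ht' : ((P : Subgroup G).relIndex N).Prime := ht
  rcases ht'.eq_one_or_self_of_dvd _ (Dvd.intro _ hmul) with h1 | h1
  · exfalso
    rw [Subgroup.relIndex_eq_one] at h1
    have hPab : IsMulCommutative (P : Subgroup G) :=
      (isCyclic_of_prime_card hPc).isMulCommutative
    let P' : Sylow p K := P.subtype hPK
    have hNC : Subgroup.normalizer ((P' : Subgroup K) : Set K) ≤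
        Subgroup.centralizer ((P' : Subgroup K) : Set K) := by
      intro x hx
      have hx' : x ∈ Subgroup.normalizer (((P : Subgroup G).subgroupOf K : Subgroup K) : Set K) := hx
      rw [← Subgroup.subgroupOf_normalizer_eq hPK] at hx'
      have hxP : (x : G) ∈ (P : Subgroup G) := h1 ⟨hx', x.2⟩
      rw [Subgroup.mem_centralizer_iff]
      intro h hh
      apply Subtype.ext
      have := congrArg Subtype.val (hPab.is_comm.comm ⟨h, hh⟩ ⟨x, hxP⟩)
      exact this
    have hL := MonoidHom.not_dvd_card_ker_transferSylow P' hNC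
    have hc := MonoidHom.ker_transferSylow_isComplement' P' hNC
    set L := (MonoidHom.transferSylow P' hNC).ker
    by_cases hL1 : L = ⊥
    · have hP'top : (P' : Subgroup K) = ⊤ := by
        have := hc.sup_eq_top
        rwa [hL1, bot_sup_eq] at this
      have hKP : K ≤ (P : Subgroup G) := Subgroup.subgroupOf_eq_top.mp hP'top
      have hPn : (P : Subgroup G).Normal := (le_antisymm hKP hPK) ▸ hK
      have := Sylow.unique_of_normal P hPn
      rw [Nat.card_unique] at hn
      exact lt_irrefl _ hn
    · obtain ⟨⟨l, hl⟩, hl1⟩ := (Subgroup.ne_bot_iff_exists_ne_one).mp hL1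
      obtain ⟨c, hc⟩ := hmove l (fun h => hl1 (Subtype.ext (Subtype.ext h)))
      exact hL (hprim K L ⟨⟨l, hl⟩, c, hc⟩)
  · rw [h1] at hmul
    have h2 : (N ⊓ K).relIndex N = 1 :=
      Nat.eq_of_mul_eq_mul_left ht'.pos (by rw [hmul, mul_one])
    rw [Subgroup.relIndex_eq_one] at h2
    rw [← hsup]
    exact (sup_eq_right.mpr (h2.trans inf_le_right)).symm

end Cfsg.Agent.S1013
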