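import Cfsg.Statements.S1014
import Cfsg.Agent.H8.Sieve

set_option autoImplicit false
open Cfsg

namespace Cfsg.Agent.S1014

/-- No finite simple group has order 1104 = 2^4 * 3 * 23. -/
theorem result {G : Type*} [Group G] [Finite G] [IsSimpleGroup G] : Nat.card G ≠ 1104 := by
  intro h
  exact H8.card_ne_of_killP (H8.not_comm_of_card_eq h (a := 23) (b := 48) (by norm_num) (by norm_num)
    (by norm_num)) (B := 80) (p := 23) (by decide +kernel) h

end Cfsg.Agent.S1014
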