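import Cfsg.Statements.S1018
import Cfsg.Agent.H8.PrimeSylow

set_option autoImplicit false
open Cfsg

namespace Cfsg.Agent.S1018

/-- Let P be a Sylow p-subgroup of order p of a finite group G, and consider the action of G on the left cosets of the normalizer N of P. Then every element of order p fixes exactly one coset, and an element of N that does not centralize P fixes at most as many cosets as there are orbits of P. -/
theorem result {G : Type*} [Group G] [Finite G] (p : ℕ) [Fact p.Prime] (P : Sylow p G) (hP : Nat.card ↥(P : Subgroup G) = p) : (∀ y : G, orderOf y = p → Nat.card (MulAction.fixedBy (G ⧸ Subgroup.normalizer ((P : Subgroup G) : Set G)) y) = 1) ∧ ∀ x : G, x ∈ Subgroup.normalizer ((P : Subgroup G) : Set G) → x ∉ Subgroup.centralizer ((P : Subgroup G) : Set G) → Nat.card (MulAction.fixedBy (G ⧸ Subgroup.normalizer ((P : Subgroup G) : Set G)) x) ≤ Nat.card (MulAction.orbitRel.Quotient ↥(P : Subgroup G) (G ⧸ Subgroup.normalizer ((P : Subgroup G) : Set G))) := by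
  classical
  have hp : p.Prime := Fact.out
  set N := Subgroup.normalizer ((P : Subgroup G) : Set G) with hN
  refine ⟨fun y hy => ?_, fun x hxN hxC => ?_⟩
  · obtain ⟨Q, hQ⟩ := H8.exists_sylow_eq_zpowers P hP hy
    obtain ⟨c, hc⟩ := MulAction.exists_smul_eq G P Q
    have key : ∀ g : G, g⁻¹ * y * g ∈ N ↔ g • P = Q := by
      intro g
      constructor
      · intro h
        have h1 : IsPGroup p (Subgroup.zpowers (g⁻¹ * y * g)) := by
          apply IsPGroup.of_card (n := 1)
          rw [Nat.card_zpowers, pow_one, ← hy]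
          have : g⁻¹ * y * g = (MulAut.conj g⁻¹) y := by simp
          rw [this, MulEquiv.orderOf_eq]
        have h2 : Subgroup.zpowers (g⁻¹ * y * g) ⊓ N = Subgroup.zpowers (g⁻¹ * y * g) ⊓ P :=
          h1.inf_normalizer_sylow P
        have h3 : g⁻¹ * y * g ∈ Subgroup.zpowers (g⁻¹ * y * g) ⊓ N := ⟨Subgroup.mem_zpowers _, h⟩
        rw [h2] at h3
        have h4 := (H8.mem_smul_sylow_iff P g y).mpr h3.2
        symm
        apply Sylow.ext
        refine ((g • P).is_maximal' Q.isPGroup' ?_)
        apply ge_of_eq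
        apply Subgroup.eq_of_le_of_card_ge (hQ ▸ Subgroup.zpowers_le.mpr h4)
        rw [Q.card_eq_multiplicity, (g • P).card_eq_multiplicity]
      · intro h
        apply Subgroup.le_normalizer
        rw [← H8.mem_smul_sylow_iff, h, hQ]
        exact Subgroup.mem_zpowers y
    rw [Nat.card_eq_one_iff_unique]
    refine ⟨⟨?_⟩, ⟨⟨(c : G ⧸ N), ?_⟩⟩⟩
    · rintro ⟨a, ha⟩ ⟨b, hb⟩
      obtain ⟨a, rfl⟩ := QuotientGroup.mk_surjective a
      obtain ⟨b, rfl⟩ := QuotientGroup.mk_surjective b
      rw [MulAction.mem_fixedBy, H8.smul_mk_eq_iff, key] at ha hb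
      apply Subtype.ext
      change (a : G ⧸ N) = b
      rw [QuotientGroup.eq]
      apply Sylow.smul_eq_iff_mem_normalizer.mp
      rw [mul_smul, hb, ← ha, inv_smul_smul]
    · rw [MulAction.mem_fixedBy, H8.smul_mk_eq_iff, key]
      exact hc
  · refine Nat.card_le_card_of_injective
      (fun a : MulAction.fixedBy (G ⧸ N) x =>
        (Quotient.mk'' a.1 : MulAction.orbitRel.Quotient (P : Subgroup G) (G ⧸ N))) ?_
    rintro ⟨a, ha⟩ ⟨b, hb⟩ hab
    apply Subtype.ext
    change a = b
    obtain ⟨u, hu⟩ : a ∈ MulAction.orbit (P : Subgroup G) b := Quotient.exact' hab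
    change (u : G) • b = a at hu
    rw [MulAction.mem_fixedBy] at ha hb
    by_cases hu1 : (u : G) = 1
    · rw [← hu, hu1, one_smul]
    have hw : (u : G)⁻¹ * (x * u * x⁻¹) ∈ (P : Subgroup G) :=
      Subgroup.mul_mem _ (Subgroup.inv_mem _ u.2) ((Subgroup.mem_normalizer_iff.mp hxN u).mp u.2)
    have hwb : ((u : G)⁻¹ * (x * u * x⁻¹)) • b = b := by
      have hb' : x⁻¹ • b = b := by rw [inv_smul_eq_iff, hb]
      rw [mul_smul, mul_smul, mul_smul, hb', hu, ha, ← hu, inv_smul_smul]
    by_cases hw1 : (u : G)⁻¹ * (x * u * x⁻¹) = 1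
    · exfalso
      apply hxC
      rw [← H8.zpowers_eq_of_mem_of_card_prime hP u.2 hu1, H8.centralizer_zpowers,
        Subgroup.mem_centralizer_singleton_iff]
      calc x * u = u * ((u : G)⁻¹ * (x * u * x⁻¹)) * x := by group
        _ = u * x := by rw [hw1, mul_one]
    · have h1 : (P : Subgroup G) ≤ MulAction.stabilizer G b := by
        rw [← H8.zpowers_eq_of_mem_of_card_prime hP hw hw1, Subgroup.zpowers_le]
        exact hwb
      rw [← hu]
      exact h1 u.2

end Cfsg.Agent.S1018
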