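import Cfsg.Statements.S1019
import Cfsg.Agent.H8.Count

set_option autoImplicit false
open Cfsg

namespace Cfsg.Agent.S1019

/-- Let H be a subgroup of a finite group G and x an element of H. In the action of G on the left cosets of H, the number of cosets fixed by x, multiplied by the size of the conjugacy class of x, equals the index of H multiplied by the number of conjugates of x that lie in H. -/
theorem result {G : Type*} [Group G] [Finite G] (H : Subgroup G) (x : G) (hx : x ∈ H) : Nat.card (MulAction.fixedBy (G ⧸ H) x) * Nat.card {g : G // IsConj x g} = H.index * Nat.card {g : G // IsConj x g ∧ g ∈ H} := by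
  exact H8.card_fixedBy_mul_card_conj H x

end Cfsg.Agent.S1019
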