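import Cfsg.Statements.S1258
import Cfsg.Agent.H4.Layer

set_option autoImplicit false
open Cfsg

namespace Cfsg.Agent.S1258

/-- If the central quotient of a finite group X is non-abelian simple, then X = X' Z(X) and the commutator subgroup X' is quasisimple. -/
theorem result {X : Type*} [Group X] [Finite X] (hs : IsSimpleGroup (X ⧸ Subgroup.center X)) (hna : ¬ IsMulCommutative (X ⧸ Subgroup.center X)) : commutator X ⊔ Subgroup.center X = ⊤ ∧ Cfsg.IsQuasisimple ↥(commutator X) := by
  open H4 Subgroup in
  have hs' := QuotientGroup.mk'_surjective (center X)
  have h1 : commutator X ⊔ center X = ⊤ := by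
    have h2 : ((commutator X).map (QuotientGroup.mk' (center X))).Normal :=
      Subgroup.Normal.map inferInstance _ hs'
    rcases h2.eq_bot_or_eq_top with h | h
    · rw [_root_.commutator_def, map_commutator, map_top_of_surjective _ hs'] at h
      exact absurd ((commutator_eq_bot_iff _).mp h) hna
    · have h3 := congrArg (comap (QuotientGroup.mk' (center X))) h
      rwa [comap_map_eq, QuotientGroup.ker_mk', comap_top] at h3
  refine ⟨h1, qs_iff.mp (QS.of_map (QuotientGroup.mk' (center X)) ?_ ?_ ?_)⟩
  · rw [_root_.commutator_def, map_commutator, map_top_of_surjective _ hs']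
    have := qs_top_iff.mpr (isQuasisimple_of_isSimpleGroup hna)
    rwa [this.perfect]
  · have h4 := commutator_sup_of_commute (A := commutator X) (B := center X) (C := commutator X)
      (D := center X) (commutator_center_right _) (commutator_center_left _)
      (commutator_center_right _) (commutator_center_right _)
    rw [h1, commutator_center_right, sup_bot_eq] at h4
    exact h4.symm
  · rw [QuotientGroup.ker_mk']
    exact inf_le_right.trans (center_le_centralizer _)

end Cfsg.Agent.S1258
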