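import Cfsg.Statements.S1271
import Cfsg.Agent.H4.AutQ

set_option autoImplicit false
open Cfsg

namespace Cfsg.Agent.S1271

/-- Let G be finite with O_{p'}(G) = 1. Suppose that for every component L of G and every subgroup H ≥ L in which L is normal, the quotient H / C_H(L) is balanced for the prime p. Then G is balanced for p. -/
theorem result {G : Type*} [Group G] [Finite G] (p : ℕ) [Fact p.Prime] (hO : Cfsg.pPrimeCore p G = ⊥) (h : ∀ L : Subgroup G, Cfsg.IsComponent L → ∀ H : Subgroup G, L ≤ H → (L.subgroupOf H).Normal → ∀ [((Subgroup.centralizer (L : Set G)).subgroupOf H).Normal], Cfsg.IsBalancedFor p (↥H ⧸ (Subgroup.centralizer (L : Set G)).subgroupOf H)) : Cfsg.IsBalancedFor p G := by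
  open H4 Subgroup in
  intro x hx
  have hO' : pPrimeCoreIn p (⊤ : Subgroup G) = ⊥ := by rwa [pPrimeCoreIn_top]
  have hloc := loc_inf_centralizer_singleton (H := ⊤) hx (le_normalizer_of_normal (mem_top _))
  rw [top_inf_eq] at hloc
  rw [centralizerPPrimeCore_eq]
  refine (eq_bot_of_centralizes_components hO' le_top (coprime_card_pPrimeCoreIn p _)
    (le_sup_right.trans hloc.opE_le_centralizer_pCoreIn) fun K hK => ?_).le.trans bot_le
  by_cases hne : ⁅K, zpowers x⁆ = K
  swap
  · have := hK.commute_core hO' hx (le_normalizer_of_normal (mem_top _)) hne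
    rwa [top_inf_eq] at this
  have hH : K ⊔ (pPrimeCoreIn p (centralizer {x}) ⊔ zpowers x) ≤ normalizer (K : Set G) :=
    sup_le le_normalizer (sup_le (le_sup_right.trans (hloc.opE_le_normalizer hO' hK))
      (zpowers_le.mpr (mem_normalizer_of_commutator_eq hne)))
  generalize hHe : K ⊔ (pPrimeCoreIn p (centralizer {x}) ⊔ zpowers x) = H at hH
  have hKH : K ≤ H := hHe ▸ le_sup_left
  have hCH : pPrimeCoreIn p (centralizer {x}) ⊔ zpowers x ≤ H := hHe ▸ le_sup_right
  have hxH : x ∈ H := hCH (mem_sup_right (mem_zpowers x))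
  have : ((centralizer (K : Set G)).subgroupOf H).Normal :=
    normal_subgroupOf_of_le_normalizer (H4.le_normalizer_centralizer hH)
  have hn : (K.subgroupOf H).Normal := normal_subgroupOf_of_le_normalizer hH
  set f := QuotientGroup.mk' ((centralizer (K : Set G)).subgroupOf H)
  have hk : f.ker = (centralizer (K : Set G)).subgroupOf H := QuotientGroup.ker_mk' _
  have h1 := map_core_le (hK.isPGroup_center hO') hH hKH hCH hHe.ge ⟨x, hxH⟩ hx
    (sup_le (pPrimeCoreIn_le p _) (zpowers_le.mpr (mem_centralizer_singleton_iff.mpr rfl))) f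
    (QuotientGroup.mk'_surjective _) hk
  have h2 := h K (compIn_top_iff.mp hK) H hKH hn (f ⟨x, hxH⟩) (orderOf_map_eq_prime f
    ((orderOf_coe _).symm.trans hx) fun e => not_mem_centralizer_of_commutator_eq hne hK.qs.ne_bot
      (mem_subgroupOf.mp (hk ▸ (MonoidHom.mem_ker.mpr e))))
  have h3 := map_le_iff_le_comap.mp (h1.trans h2)
  have hq : QS (K.subgroupOf H) := by
    rw [← qs_map_iff_of_injective H.subtype_injective, map_subgroupOf_eq_of_le hKH]; exact hK.qs
  rcases hq.commutator_eq_or (A := (Cfsg.pPrimeCore p _).comap f) le_normalizer_of_normal with e | e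
  · exfalso
    obtain ⟨y, hy, ⟨k, hk'⟩, hy1⟩ := hK.qs.exists_pElem (hK.dvd_card hO')
    have h4 : (⟨y, hKH hy⟩ : H) ∈ (Cfsg.pPrimeCore p _).comap f :=
      commutator_le_left _ _ (e.ge (show (⟨y, hKH hy⟩ : H) ∈ K.subgroupOf H from hy))
    have h5 := eq_one_of_pow_pow_of_coprime (k := k) (x := f ⟨y, hKH hy⟩) (by
      rw [← map_pow, show (⟨y, hKH hy⟩ : H) ^ p ^ k = 1 from Subtype.ext hk', map_one])
      (coprime_orderOf_of_mem (coprime_card_pPrimeCore p _) h4)
    exact hy1 (mem_subgroupOf.mp (hk ▸ (MonoidHom.mem_ker.mpr h5)))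
  · have h4 := commutator_eq_bot_mono e h3 le_rfl
    rw [← le_bot_iff, commutator_subgroupOf_le_iff (le_sup_left.trans hCH) hKH, Subgroup.map_bot,
      le_bot_iff, commutator_comm] at h4
    exact h4

end Cfsg.Agent.S1271
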