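import Cfsg.Statements.S1272
import Cfsg.Agent.H4.PLayer

set_option autoImplicit false
open Cfsg

namespace Cfsg.Agent.S1272

/-- Let X be finite and Q = X / O_{p'}(X). For every component Kbar of Q there is a unique p-component K of X whose image in Q is Kbar; and the image of the p-layer L_{p'}(X) in Q is E(Q). -/
theorem result {X : Type*} [Group X] [Finite X] (p : ℕ) [Fact p.Prime] : (∀ Kbar : Subgroup (X ⧸ Cfsg.pPrimeCore p X), Cfsg.IsComponent Kbar → ∃! K : Subgroup X, Cfsg.IsPComponent p K ∧ K.map (QuotientGroup.mk' (Cfsg.pPrimeCore p X)) = Kbar) ∧ (Cfsg.pLayer p X).map (QuotientGroup.mk' (Cfsg.pPrimeCore p X)) = Cfsg.layer (X ⧸ Cfsg.pPrimeCore p X) := by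
  open H4 Subgroup in
  refine ⟨fun Kb hKb => ?_, map_pLayer_mk'⟩
  have hs := QuotientGroup.mk'_surjective (Cfsg.pPrimeCore p X)
  have h1 : PCompIn p ((⊤ : Subgroup X).map (QuotientGroup.mk' (Cfsg.pPrimeCore p X))) Kb := by
    rw [map_top_of_surjective _ hs, pcompIn_iff_compIn
      (by rw [pPrimeCoreIn_top, pPrimeCore_quotient_pPrimeCore])]
    exact compIn_top_iff.mpr hKb
  obtain ⟨h2, h3⟩ := h1.lift _ (coprime_inf_ker_mk' _)
  refine ⟨_, ⟨pcompIn_top_iff.mp h2, h3⟩, fun K hK => ?_⟩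
  have h4 := pcompIn_top_iff.mpr hK.1
  exact h4.eq_of_le h2 (h4.le_of_map_le _ (coprime_inf_ker_mk' _) h2.1 (hK.2.trans h3.symm).le)

end Cfsg.Agent.S1272
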