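import Cfsg.Statements.S1279
import Cfsg.Agent.H5.Constr
import Cfsg.Agent.H5.Sig

set_option autoImplicit false
open Cfsg

namespace Cfsg.Agent.S1279

/-- Let A be a noncyclic elementary abelian p-subgroup of the finite group G such that C_G(a) is solvable for every non-identity a ∈ A. Then a ↦ O_{p'}(C_G(a)) is a solvable A-signalizer functor on G. -/
theorem result {G : Type*} [Group G] [Finite G] (p : ℕ) [Fact p.Prime] (A : Subgroup G) (hA : Cfsg.IsElementaryAbelian p A) (hA2 : p ^ 2 ≤ Nat.card ↥A) (hsolv : ∀ a ∈ A, a ≠ 1 → Group.IsSolvable ↥(Subgroup.centralizer ({a} : Set G))) : Cfsg.IsSolvableSignalizerFunctor p A (fun a => Cfsg.centralizerPPrimeCore p a) := by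
  refine H5.isSolvableSignalizerFunctor_of (fun a ha h1 => H4.pPrimeCoreIn_le p _) fun a ha h1 => ?_
  rw [H5.mem_fam_iff]
  refine ⟨H5.isSolvable_of_le (H4.pPrimeCoreIn_le p _) (hsolv a ha h1),
    (Fact.out : p.Prime).coprime_iff_not_dvd.1 (H4.coprime_card_pPrimeCoreIn p _).symm,
    (H5.le_centralizer_singleton_of_comm hA.1 ha).trans (H4.le_normalizer_pPrimeCoreIn p _),
    fun b hb hb1 => ?_⟩
  set C := Subgroup.centralizer ({b} : Set G) with hC
  have haC : a ∈ C := H5.le_centralizer_singleton_of_comm hA.1 hb ha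
  change _ ≤ H4.pPrimeCoreIn p C
  rw [H4.le_map_subtype_iff inf_le_right]
  have e : Subgroup.centralizer (Subgroup.zpowers (⟨a, haC⟩ : C) : Set C) =
      (Subgroup.centralizer {a}).subgroupOf C := by
    rw [H5.centralizer_zpowers]
    ext x
    rw [Subgroup.mem_subgroupOf, Subgroup.mem_centralizer_singleton_iff,
      Subgroup.mem_centralizer_singleton_iff, Subtype.ext_iff]
    rfl
  refine H5.le_pPrimeCore_of_isPConstrained (H5.isPConstrained_of_isSolvable (hsolv b hb hb1))
    (P := Subgroup.zpowers (⟨a, haC⟩ : C))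
    (H4.isPGroup_zpowers_of_pow (k := 1) (Subtype.ext (by simpa using hA.2 a ha))) ?_ ?_ ?_
  · rw [Nat.card_congr (Subgroup.subgroupOfEquivOfLe inf_le_right).toEquiv]
    exact H4.coprime_card_of_le inf_le_left (H4.coprime_card_pPrimeCoreIn p _)
  · rw [e]
    exact Subgroup.comap_mono (inf_le_left.trans (H4.pPrimeCoreIn_le p _))
  · rw [e, Subgroup.inf_subgroupOf_right]
    exact H5.subgroupOf_le_normalizer_subgroupOf (H4.le_normalizer_pPrimeCoreIn p _)

end Cfsg.Agent.S1279
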