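import Cfsg.Statements.S1286
import Cfsg.Agent.H5.Sig

set_option autoImplicit false
open Cfsg

namespace Cfsg.Agent.S1286

abbrev P5 := Equiv.Perm (Fin 5)

def a1 : P5 := Equiv.swap 0 1
def a2 : P5 := Equiv.swap 2 3
def x : P5 := Equiv.swap 2 4 * Equiv.swap 2 3
def y : P5 := Equiv.swap 0 4 * Equiv.swap 0 1

def mkSub (s : Finset P5) (h1 : 1 ∈ s) (h2 : ∀ a ∈ s, ∀ b ∈ s, a * b ∈ s)
    (h3 : ∀ a ∈ s, a⁻¹ ∈ s) : Subgroup P5 where
  carrier := s
  one_mem' := h1
  mul_mem' := fun ha hb => h2 _ ha _ hb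
  inv_mem' := fun ha => h3 _ ha

theorem card_mkSub (s : Finset P5) (h1 h2 h3) : Nat.card (mkSub s h1 h2 h3) = s.card :=
  Nat.card_eq_finsetCard s

def sA : Finset P5 := {1, a1, a2, a1 * a2}

def sT (a : P5) : Finset P5 :=
  if a = a1 then {1, x, x * x} else if a = a2 then {1, y, y * y} else {1}

theorem sT_cases (P : Finset P5 → Prop) (h1 : P {1, x, x * x}) (h2 : P {1, y, y * y})
    (h3 : P {1}) (a : P5) : P (sT a) := by
  unfold sT
  split_ifs <;> assumption

def A : Subgroup P5 := mkSub sA (by decide +kernel) (by decide +kernel) (by decide +kernel)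

def θ (a : P5) : Subgroup P5 := mkSub (sT a)
  (sT_cases (fun s => 1 ∈ s) (by decide +kernel) (by decide +kernel) (by decide +kernel) a)
  (sT_cases (fun s => ∀ a ∈ s, ∀ b ∈ s, a * b ∈ s) (by decide +kernel) (by decide +kernel) (by decide +kernel) a)
  (sT_cases (fun s => ∀ a ∈ s, a⁻¹ ∈ s) (by decide +kernel) (by decide +kernel) (by decide +kernel) a)

/-- There exist a finite group X, an elementary abelian subgroup A of order 4 and a solvable A-signalizer functor θ on X for the prime 2 which is not complete. -/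
theorem result : ∃ (X : Type) (_ : Group X) (_ : Finite X) (A : Subgroup X) (θ : X → Subgroup X), Cfsg.IsElementaryAbelian 2 A ∧ Nat.card ↥A = 4 ∧ Cfsg.IsSolvableSignalizerFunctor 2 A θ ∧ ¬ Cfsg.IsCompleteSignalizerFunctor 2 A θ := by
  have h1 : ∀ a ∈ sA, ∀ b ∈ sA, a * b = b * a := by decide +kernel
  have h2 : ∀ a ∈ sA, a ^ 2 = 1 := by decide +kernel
  have h3 : ∀ a ∈ sA, ∀ u ∈ sT a, u * a = a * u := by decide +kernel
  have h4 : ∀ a ∈ sA, ¬ 2 ∣ (sT a).card := by decide +kernel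
  have h5 : ∀ a ∈ sA, ∀ b ∈ sA, ∀ u ∈ sT a, b * u * b⁻¹ ∈ sT a := by decide +kernel
  have h6 : ∀ a ∈ sA, ∀ b ∈ sA, b ≠ 1 → ∀ u ∈ sT a, u * b = b * u → u ∈ sT b := by decide +kernel
  have h7 : ∀ a ∈ sA, ∀ u ∈ sT a, ∀ v ∈ sT a, u * v = v * u := by decide +kernel
  refine ⟨P5, inferInstance, inferInstance, A, θ, ⟨H5.isMulCommutative_of_forall h1, h2⟩,
    (card_mkSub _ _ _ _).trans (by decide +kernel), ⟨⟨fun a ha _ u hu =>
      Subgroup.mem_centralizer_singleton_iff.2 (h3 a ha u hu), fun a ha _ => ?_,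
      fun a ha _ => h5 a ha, fun a ha _ b hb hb1 u hu =>
      h6 a ha b hb hb1 u hu.1 (Subgroup.mem_centralizer_singleton_iff.1 hu.2)⟩,
      fun a ha _ => H5.isSolvable_of_isMulCommutative (H5.isMulCommutative_of_forall (h7 a ha))⟩,
    ?_⟩
  · unfold θ
    rw [card_mkSub]
    exact h4 a ha
  · rintro ⟨-, W, -, -, h⟩
    have hx : x ∈ W ⊓ Subgroup.centralizer {a1} := by
      rw [h a1 (show a1 ∈ sA by decide +kernel) (by decide +kernel)]
      exact (show x ∈ sT a1 by decide +kernel)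
    have hy : y ∈ W ⊓ Subgroup.centralizer {a2} := by
      rw [h a2 (show a2 ∈ sA by decide +kernel) (by decide +kernel)]
      exact (show y ∈ sT a2 by decide +kernel)
    have hw : x * y * x * y * x ∈ W ⊓ Subgroup.centralizer {a1 * a2} :=
      ⟨W.mul_mem (W.mul_mem (W.mul_mem (W.mul_mem hx.1 hy.1) hx.1) hy.1) hx.1,
        Subgroup.mem_centralizer_singleton_iff.2 (by decide +kernel)⟩
    rw [h (a1 * a2) (show a1 * a2 ∈ sA by decide +kernel) (by decide +kernel)] at hw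
    exact absurd (show x * y * x * y * x ∈ sT (a1 * a2) from hw) (by decide +kernel)

end Cfsg.Agent.S1286
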