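import Cfsg.Statements.S1288
import Cfsg.Agent.H5.Sect
import Cfsg.Agent.H5.Sig

set_option autoImplicit false
open Cfsg

namespace Cfsg.Agent.S1288

/-- Let A be a noncyclic elementary abelian p-subgroup of a finite group H normalizing a solvable subgroup K of order prime to p, q a prime dividing |K|, and U ≤ K a subgroup of order prime to q such that ⁅U, C_K(B)⁆ has order prime to q for every subgroup B of index p in A. Then U ≤ O_{q'}(K). -/
theorem result {H : Type*} [Group H] [Finite H] (p : ℕ) [Fact p.Prime] (A K : Subgroup H) (hA : Cfsg.IsElementaryAbelian p A) (hA2 : p ^ 2 ≤ Nat.card ↥A) (hK : ¬ p ∣ Nat.card ↥K) (hKs : Group.IsSolvable ↥K) (hAK : A ≤ Subgroup.normalizer (K : Set H)) (q : ℕ) [Fact q.Prime] (hqK : q ∣ Nat.card ↥K) (U : Subgroup H) (hU : U ≤ K) (hUq : ¬ q ∣ Nat.card ↥U) (hcomm : ∀ B : Subgroup H, B ≤ A → B.relIndex A = p → ¬ q ∣ Nat.card ↥⁅U, K ⊓ Subgroup.centralizer (B : Set H)⁆) : U ≤ (Cfsg.pPrimeCore q ↥K).map K.subtype := by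
  have hq : q.Prime := Fact.out
  have hA0 : A ≠ ⊥ := H5.ne_bot_of_card_ge (p := p) (k := 1) hA2
  change U ≤ H4.pPrimeCoreIn q K
  have hLn : K ⊔ A ≤ Subgroup.normalizer (H4.pPrimeCoreIn q K : Set H) :=
    (sup_le Subgroup.le_normalizer hAK).trans (H4.normalizer_le_normalizer_pPrimeCoreIn q K)
  obtain ⟨Q, _, _, f, hf, hk⟩ := H5.exists_hom_ker_eq hLn
  have hKL : K ≤ K ⊔ A := le_sup_left
  have hAL : A ≤ K ⊔ A := le_sup_right
  have h0 := H5.pPrimeCoreIn_im_eq_bot hf hk hKL
  have hC := H5.inf_centralizer_pCoreIn_le (p := q)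
    (H5.isPSolvable_of_isSolvable (H5.isSolvable_im (f := f) hKs)) h0
  set R := H4.pCoreIn q (H5.im f K) with hR
  have hRK : H5.pre f R ≤ K :=
    H5.pre_le_of_le_im hk (H4.pPrimeCoreIn_le _ _) hKL (H4.pCoreIn_le _ _)
  have hAR : A ≤ Subgroup.normalizer (H5.pre f R : Set H) :=
    H5.le_normalizer_pre hAL ((H5.im_le_normalizer hAK).trans
      (H4.normalizer_le_normalizer_pCoreIn q _))
  have hUq' : (Nat.card U).Coprime q := ((Nat.Prime.coprime_iff_not_dvd hq).2 hUq).symm
  have key : H5.pre f R ≤ H5.pre f (Subgroup.centralizer (H5.im f U : Set Q)) := by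
    apply H5.le_of_hyperplanes hA hA0 hAR (H5.not_dvd_of_le hRK hK)
    intro B hB hi
    have hle : H5.pre f R ⊓ Subgroup.centralizer (B : Set H) ≤ K ⊔ A := inf_le_left.trans (H5.pre_le _)
    rw [← H5.im_le_iff hle, ← Subgroup.commutator_eq_bot_iff_le_centralizer,
      Subgroup.commutator_comm, ← H5.im_commutator (hU.trans hKL) hle]
    apply H4.eq_bot_of_pGroup_coprime (p := q)
    · refine (H4.isPGroup_pCoreIn q (H5.im f K)).to_le ?_
      rw [H5.im_commutator (hU.trans hKL) hle]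
      refine (Subgroup.commutator_mono (H5.im_mono hU)
        ((H5.im_mono inf_le_left).trans (H5.im_pre_le R))).trans ?_
      rw [Subgroup.commutator_comm]
      exact H5.commutator_le_left_of_le_normalizer (H4.le_normalizer_pCoreIn q _)
    · apply H5.coprime_im_left
      refine H5.coprime_of_le_left (Subgroup.commutator_mono le_rfl (inf_le_inf_right _ hRK)) ?_
      exact ((Nat.Prime.coprime_iff_not_dvd hq).2 (hcomm B hB hi)).symm
  rw [H5.pre_le_pre_iff hf, Subgroup.le_centralizer_iff] at key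
  rw [← H5.im_eq_bot_iff hk (hU.trans hKL)]
  exact H4.eq_bot_of_pGroup_coprime (p := q)
    ((H4.isPGroup_pCoreIn q _).to_le ((le_inf (H5.im_mono hU) key).trans hC))
    (H5.coprime_im_left hUq')

end Cfsg.Agent.S1288
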