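import Cfsg.Statements.S1289
import Cfsg.Agent.H4.PLayer

set_option autoImplicit false
open Cfsg

namespace Cfsg.Agent.S1289

/-- A p-component K of the finite group X is subnormal, perfect, of order divisible by p, and minimal among the subnormal perfect subgroups of X of order divisible by p. -/
theorem result {X : Type*} [Group X] [Finite X] (p : ℕ) [Fact p.Prime] (K : Subgroup X) (hK : Cfsg.IsPComponent p K) : K.IsSubnormal ∧ ⁅K, K⁆ = K ∧ p ∣ Nat.card ↥K ∧ ∀ H : Subgroup X, H ≤ K → H.IsSubnormal → ⁅H, H⁆ = H → p ∣ Nat.card ↥H → H = K := by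
  open H4 Subgroup in
  have h := pcompIn_top_iff.mpr hK
  refine ⟨hK.1, h.perfect, h.2.dvd_card, fun H h1 h2 h3 h4 => ?_⟩
  refine (h.sn_eq_or ((sn_top_iff.mpr h2).of_le h1 le_top)).resolve_right fun e => ?_
  have h5 : H ≤ pPrimeCoreIn p K := h3.ge.trans ((commutator_mono h1 le_rfl).trans e)
  exact (Fact.out : p.Prime).coprime_iff_not_dvd.mp
    (coprime_card_of_le h5 (coprime_card_pPrimeCoreIn p K)).symm h4

end Cfsg.Agent.S1289
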