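import Cfsg.Statements.S1297
import Cfsg.Agent.H4.AutQ

set_option autoImplicit false
open Cfsg

namespace Cfsg.Agent.S1297

theorem aux {K : Type*} [Group K] [Finite K] (h : Cfsg.IsLocallyBalanced K) :
    Cfsg.IsLocallyKBalanced 2 1 K := by
  intro H hH A hA hA2
  obtain ⟨a, ha, ha2⟩ := H4.exists_orderOf_eq_prime_mem (p := 2) (N := A) (by rw [hA2]; rfl)
  have h1 : Cfsg.signalizerDelta 2 A ≤ Cfsg.centralizerPPrimeCore 2 a :=
    iInf_le_of_le ⟨a, ha, H4.ne_one_of_orderOf ha2⟩ le_rfl
  exact eq_bot_iff.mpr (h1.trans (h H hH a ha2).le)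

/-- Let G be finite. Suppose that for every involution x, writing C = C_G(x), every component K of C / O(C) has K / Z(K) locally balanced. Then G is balanced. -/
theorem result {G : Type*} [Group G] [Finite G] (h : ∀ x : G, orderOf x = 2 → ∀ K : Subgroup (↥(Subgroup.centralizer ({x} : Set G)) ⧸ Cfsg.oddCore ↥(Subgroup.centralizer ({x} : Set G))), Cfsg.IsComponent K → Cfsg.IsLocallyBalanced (↥K ⧸ Subgroup.center ↥K)) : Cfsg.IsBalanced G := by
  open H4 Subgroup in
  have key : ∀ x y : G, orderOf x = 2 → orderOf y = 2 → x * y = y * x →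
      Cfsg.centralizerPPrimeCore 2 x ⊓ centralizer {y} ≤ Cfsg.centralizerPPrimeCore 2 y := by
    intro x y hx hy hxy
    refine le_core_of_locallyKBalanced (k := 1) (fun K hK => aux (h y hy K hK)) (elem_zpowers hx)
      (by rw [Nat.card_zpowers, hx]; rfl) (fun e => ne_one_of_orderOf hx (zpowers_eq_bot.mp e))
      (zpowers_le.mpr (mem_centralizer_singleton_iff.mpr hxy)) inf_le_right fun a ha ha1 => ?_
    classical
    obtain ⟨n, hn, rfl⟩ := (mem_zpowers_iff_mem_range_orderOf.mp ha |> Finset.mem_image.mp)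
    rw [hx, Finset.mem_range] at hn
    interval_cases n
    · simp at ha1
    · rw [pow_one]; exact inf_le_left
  intro x y hx hy hxy
  exact le_antisymm (le_inf (key x y hx hy hxy) (inf_le_left.trans (pPrimeCoreIn_le 2 _)))
    (le_inf (key y x hy hx hxy.symm) (inf_le_left.trans (pPrimeCoreIn_le 2 _)))

end Cfsg.Agent.S1297
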