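import Cfsg.Statements.S1299
import Cfsg.Agent.H5.GenFix

set_option autoImplicit false
open Cfsg

namespace Cfsg.Agent.S1299

/-- Let G be finite and k-balanced for the prime p (k ≥ 1), A an elementary abelian p-subgroup of order at least p^(k+2) such that O_{p'}(C_G(a)) is solvable for every non-identity a ∈ A. For a ∈ A put θ a = the subgroup generated by the Δ_G(D) ∩ C_G(a) over the subgroups D ≤ A of order p^k. Then θ is an A-signalizer functor. -/
theorem result {G : Type*} [Group G] [Finite G] (p k : ℕ) [Fact p.Prime] (hk : 1 ≤ k) (hbal : Cfsg.IsKBalanced p k G) (A : Subgroup G) (hA : Cfsg.IsElementaryAbelian p A) (hAk : p ^ (k + 2) ≤ Nat.card ↥A) (hsolv : ∀ a ∈ A, a ≠ 1 → Group.IsSolvable ↥(Cfsg.centralizerPPrimeCore p a)) : Cfsg.IsSignalizerFunctor p A (fun a => ⨆ D : {D : Subgroup G // D ≤ A ∧ Nat.card ↥D = p ^ k}, Cfsg.signalizerDelta p (D : Subgroup G) ⊓ Subgroup.centralizer {a}) := by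
  have hp : p.Prime := Fact.out
  have hA0 : A ≠ ⊥ := H5.ne_bot_of_card_ge (p := p) (k := k + 1) hAk
  have anti : ∀ {D E : Subgroup G}, D ≤ E → signalizerDelta p E ≤ signalizerDelta p D :=
    fun h => H5.signalizerInf_anti (θ := fun a => centralizerPPrimeCore p a) h
  have F1 : ∀ E ≤ A, p ^ k ≤ Nat.card E → ∀ b ∈ A, b ≠ 1 →
      signalizerDelta p E ⊓ Subgroup.centralizer {b} ≤ centralizerPPrimeCore p b := by
    intro E hE hc b hb hb1
    obtain ⟨D, hD, e⟩ := H5.exists_le_card_eq ((H5.isPGroup_of_elem hA).to_le hE) hc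
    exact (inf_le_inf_right _ (anti hD)).trans (hbal D (H5.elem_of_le hA (hD.trans hE)) e b
      (H5.orderOf_eq_of_elem hA hb hb1) fun a ha =>
        H5.comm_of_isMulCommutative hA.1 (hE (hD ha)) hb)
  have F3 : ∀ E ≤ A, p ^ k ≤ Nat.card E → ∀ F ≤ A,
      signalizerDelta p E ⊓ Subgroup.centralizer (F : Set G) ≤ signalizerDelta p F := by
    intro E hE hc F hF
    exact (H5.le_signalizerInf (θ := fun a => centralizerPPrimeCore p a)).2 fun b hb hb1 =>
      (inf_le_inf_left _ (H5.le_centralizer_singleton_of_mem hb)).trans (F1 E hE hc b (hF hb) hb1)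
  have hn : ∀ D ≤ A, ∀ a ∈ A, A ≤ Subgroup.normalizer
      ((signalizerDelta p D ⊓ Subgroup.centralizer {a} : Subgroup G) : Set G) :=
    fun D hD a ha => H5.le_normalizer_inf (H5.le_normalizer_iInf fun d =>
      (H5.le_centralizer_singleton_of_comm hA.1 (hD d.2.1)).trans
        (H4.le_normalizer_pPrimeCoreIn p _))
      (H5.le_normalizer_of_le (H5.le_centralizer_singleton_of_comm hA.1 ha))
  set θ : G → Subgroup G := fun a => ⨆ D : {D : Subgroup G // D ≤ A ∧ Nat.card ↥D = p ^ k},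
    Cfsg.signalizerDelta p (D : Subgroup G) ⊓ Subgroup.centralizer {a} with hθ
  have h1 : ∀ a ∈ A, a ≠ 1 → θ a ≤ centralizerPPrimeCore p a := fun a ha ha1 =>
    iSup_le fun D => F1 D D.2.1 D.2.2.ge a ha ha1
  have h2 : ∀ a ∈ A, a ≠ 1 → ¬ p ∣ Nat.card (θ a) := fun a ha ha1 =>
    H5.not_dvd_of_le (h1 a ha ha1)
      (hp.coprime_iff_not_dvd.1 (H4.coprime_card_pPrimeCoreIn p _).symm)
  have h3 : ∀ a ∈ A, A ≤ Subgroup.normalizer (θ a : Set G) := fun a ha =>
    H5.le_normalizer_iSup fun D => hn D D.2.1 a ha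
  have hB : ∀ B ≤ A, B.relIndex A = p → p ^ k ≤ Nat.card B := fun B hB hi =>
    (Nat.pow_le_pow_right hp.pos (Nat.le_succ k)).trans (H5.card_ge_of_relIndex hB hi hAk)
  have h4 : ∀ a, ∀ B ≤ A, B.relIndex A = p →
      signalizerDelta p B ⊓ Subgroup.centralizer {a} ≤ θ a := by
    intro a B hBA hi
    obtain ⟨D, hD, e⟩ := H5.exists_le_card_eq ((H5.isPGroup_of_elem hA).to_le hBA) (hB B hBA hi)
    exact (inf_le_inf_right _ (anti hD)).trans (le_iSup (fun D : {D : Subgroup G //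
      D ≤ A ∧ Nat.card ↥D = p ^ k} => Cfsg.signalizerDelta p (D : Subgroup G) ⊓
        Subgroup.centralizer {a}) ⟨D, hD.trans hBA, e⟩)
  refine ⟨fun a ha ha1 => iSup_le fun D => inf_le_right, h2,
    fun a ha ha1 b hb x hx => H5.conj_mem_of_le_normalizer (h3 a ha) hb hx,
    fun a ha ha1 b hb hb1 => ?_⟩
  have key := H5.inf_centralizer_le_of_gen (ι := {B : Subgroup G // B ≤ A ∧ B.relIndex A = p})
    (A := A) (B := fun B => B.1) (fun B => B.2.1) (θ a)
    (H5.isSolvable_of_le (h1 a ha ha1) (hsolv a ha ha1))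
    (H5.coprime_card_of_isPGroup (H5.isPGroup_of_elem hA) (h2 a ha ha1))
    (fun K hK hAK H h => H5.le_of_hyperplanes hA hA0 hAK (H5.not_dvd_of_le hK (h2 a ha ha1))
      fun B hB hi => h ⟨B, hB, hi⟩)
    (fun B => signalizerDelta p B.1 ⊓ Subgroup.centralizer {a}) (fun B => hn _ B.2.1 a ha)
    (le_antisymm (iSup_le fun D => H5.le_of_hyperplanes hA hA0 (hn _ D.2.1 a ha)
      (H5.not_dvd_of_le (le_iSup (fun D : {D : Subgroup G //
        D ≤ A ∧ Nat.card ↥D = p ^ k} => Cfsg.signalizerDelta p (D : Subgroup G) ⊓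
        Subgroup.centralizer {a}) D) (h2 a ha ha1)) fun B hB hi =>
        le_trans (le_inf ((inf_le_inf_right _ inf_le_left).trans (F3 _ D.2.1 D.2.2.ge B hB))
          (inf_le_left.trans inf_le_right))
          (le_iSup (fun B : {B : Subgroup G // B ≤ A ∧ B.relIndex A = p} =>
            signalizerDelta p B.1 ⊓ Subgroup.centralizer {a}) ⟨B, hB, hi⟩))
      (iSup_le fun B => h4 a _ B.2.1 B.2.2))
    (fun i j l => le_inf ((inf_le_inf_right _ (sup_le (inf_le_left.trans (anti inf_le_left))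
      (inf_le_left.trans (anti inf_le_right)))).trans (F3 (i.1 ⊓ j.1) (inf_le_left.trans i.2.1)
        (H5.card_inf_ge_of_hyperplanes hAk i.2.1 i.2.2 j.2.2) _ l.2.1))
      (inf_le_left.trans (sup_le inf_le_right inf_le_right)))
  refine H5.le_of_hyperplanes hA hA0 (H5.le_normalizer_inf (h3 a ha)
    (H5.le_normalizer_of_le (H5.le_centralizer_singleton_of_comm hA.1 hb)))
    (H5.not_dvd_of_le inf_le_left (h2 a ha ha1)) fun B hB hi => le_trans ?_ (h4 b B hB hi)
  exact le_inf (((inf_le_inf_right _ inf_le_left).trans (key ⟨B, hB, hi⟩)).trans inf_le_left)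
    (inf_le_left.trans inf_le_right)

end Cfsg.Agent.S1299
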