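import Cfsg.Statements.S1300
import Cfsg.Agent.H4.Layer

set_option autoImplicit false
open Cfsg

namespace Cfsg.Agent.S1300

/-- For a finite group G, balance in the sense of commuting involutions is the same as 1-balance for the prime 2. -/
theorem result {G : Type*} [Group G] [Finite G] : Cfsg.IsBalanced G ↔ Cfsg.IsKBalanced 2 1 G := by
  open H4 Subgroup in
  classical
  constructor
  · intro h A hA hc b hb hab
    obtain ⟨a, ha, ha2⟩ := exists_orderOf_eq_prime_mem (p := 2) (N := A) (by rw [hc]; simp)
    have ha1 : a ≠ 1 := by rintro rfl; simp at ha2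
    refine le_trans (inf_le_inf_right _ (iInf_le _ ⟨a, ha, ha1⟩)) ?_
    rw [h a b ha2 hb (hab a ha)]
    exact inf_le_left
  · intro h
    have key : ∀ x y : G, orderOf x = 2 → orderOf y = 2 → x * y = y * x →
        centralizerPPrimeCore 2 x ⊓ centralizer {y} ≤
          centralizerPPrimeCore 2 y ⊓ centralizer {x} := by
      intro x y hx hy hxy
      refine le_inf (le_trans (inf_le_inf_right _ ?_) (h (zpowers x) ⟨inferInstance, ?_⟩
        (by rw [Nat.card_zpowers, hx, pow_one]) y hy ?_))
        (inf_le_left.trans (map_subtype_le _))
      · refine le_iInf fun ⟨a, ha, ha1⟩ => ?_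
        have : a = x := by
          rw [mem_zpowers_iff_mem_range_orderOf, hx] at ha
          simp only [Finset.mem_image, Finset.mem_range] at ha
          obtain ⟨k, hk, rfl⟩ := ha
          interval_cases k
          · simp at ha1
          · simp
        subst this
        exact le_rfl
      · rintro _ ⟨k, rfl⟩
        rw [← zpow_natCast, ← zpow_mul, mul_comm, zpow_mul, zpow_natCast, ← hx, pow_orderOf_eq_one,
          one_zpow]
      · rintro _ ⟨k, rfl⟩
        exact (Commute.zpow_left hxy k).eq
    exact fun x y hx hy hxy => le_antisymm (key x y hx hy hxy) (key y x hy hx hxy.symm)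

end Cfsg.Agent.S1300
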