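import Cfsg.Statements.S1301
import Cfsg.Agent.H4.ZStmts
import Cfsg.Agent.L.ZStar

set_option autoImplicit false
open Cfsg

namespace Cfsg.Agent.S1301

/-- L-balance: for a finite group X and a 2-subgroup T ≤ X, L_{2'}(C_X(T)) ≤ L_{2'}(X). -/
theorem result {X : Type*} [Group X] [Finite X] (T : Subgroup X) (hT : IsPGroup 2 ↥T) : (Cfsg.pLayer 2 ↥(Subgroup.centralizer (T : Set X))).map (Subgroup.centralizer (T : Set X)).subtype ≤ Cfsg.pLayer 2 X := by
  exact H4.lbal L.zstar hT

end Cfsg.Agent.S1301
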