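import Cfsg.Statements.S1302
import Cfsg.Agent.H5.BaerTrick
import Cfsg.Agent.H5.Stable

set_option autoImplicit false
open Cfsg

namespace Cfsg.Agent.S1302

/-- Let X be a finite p-constrained group, p an odd prime, and A an abelian p-subgroup of X containing every element of order p of C_X(A). Then every subgroup of X of order prime to p that is normalized by A lies in O_{p'}(X). -/
theorem result {X : Type*} [Group X] [Finite X] (p : ℕ) [Fact p.Prime] (hp : p ≠ 2) (hX : Cfsg.IsPConstrained p X) (A : Subgroup X) (hA : IsMulCommutative ↥A) (hAp : IsPGroup p ↥A) (hΩ : ∀ x ∈ Subgroup.centralizer (A : Set X), orderOf x = p → x ∈ A) (Q : Subgroup X) (hQ : ¬ p ∣ Nat.card ↥Q) (hAQ : A ≤ Subgroup.normalizer (Q : Set X)) : Q ≤ Cfsg.pPrimeCore p X := by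
  have hpp : p.Prime := Fact.out
  set f := QuotientGroup.mk' (Cfsg.pPrimeCore p X) with hf
  have hsurj : Function.Surjective f := QuotientGroup.mk'_surjective _
  have hk : f.ker = Cfsg.pPrimeCore p X := QuotientGroup.ker_mk' _
  have hk' : (Nat.card f.ker).Coprime p := by rw [hk]; exact H4.coprime_card_pPrimeCore p X
  have hC := H5.isPConstrained_iff.1 hX
  have hQ' : (Nat.card (Q.map f)).Coprime p :=
    H4.coprime_card_map ((Nat.Prime.coprime_iff_not_dvd hpp).2 hQ).symm f
  have hn := H5.map_le_normalizer_map f hAQ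
  have key := H5.le_centralizer_of_omega_fixed hp (hAp.map f)
    ((Nat.Prime.coprime_iff_not_dvd hpp).1 hQ'.symm) hn _ (H4.isPGroup_pCore p _)
    Subgroup.le_normalizer_of_normal Subgroup.le_normalizer_of_normal (by
      intro w hw e hc
      rw [← H5.map_centralizer hsurj (H5.coprime_card_of_isPGroup hAp
        ((Nat.Prime.coprime_iff_not_dvd hpp).1 hk'.symm))
        (Or.inl (H5.isSolvable_of_isPGroup hAp))] at hc
      obtain ⟨S, hS, eS⟩ : ∃ S ≤ Subgroup.centralizer (A : Set X), IsPGroup p S ∧ w ∈ S.map f := by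
        obtain ⟨c, hc, rfl⟩ := hc
        obtain ⟨S, hS⟩ := H5.exists_isSylowOf p (Subgroup.zpowers c)
        refine ⟨S, hS.le.trans (Subgroup.zpowers_le.2 hc), hS.isPGroup, ?_⟩
        rw [hS.map_eq_of_isPGroup f (by
          rw [MonoidHom.map_zpowers]
          exact H4.isPGroup_zpowers_of_pow (k := 1) (by rwa [pow_one]))]
        exact ⟨c, Subgroup.mem_zpowers c, rfl⟩
      obtain ⟨hSp, a, ha, rfl⟩ := eS
      have h1 : a ^ p ∈ S ⊓ f.ker := ⟨S.pow_mem ha p, by
        change f _ = 1
        rwa [map_pow]⟩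
      rw [H4.inf_eq_bot_of_pGroup_coprime hSp hk', Subgroup.mem_bot] at h1
      have haA : a ∈ A := by
        by_cases h0 : a = 1
        · exact h0 ▸ A.one_mem
        · exact hΩ a (hS ha) (orderOf_eq_prime h1 h0)
      intro y hy
      have h3 : y * f a * y⁻¹ * (f a)⁻¹ ∈ Cfsg.pCore p _ ⊓ Q.map f :=
        ⟨Subgroup.mul_mem _ ((inferInstance : (Cfsg.pCore p _).Normal).conj_mem _ hw y)
          (Subgroup.inv_mem _ hw), H5.mem_of_eq (Subgroup.mul_mem _ hy
            (H5.conj_mem_of_le_normalizer hn ⟨a, haA, rfl⟩ (Subgroup.inv_mem _ hy))) (by group)⟩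
      rw [H4.inf_eq_bot_of_pGroup_coprime (H4.isPGroup_pCore p _) hQ', Subgroup.mem_bot] at h3
      rw [mul_inv_eq_one, mul_inv_eq_iff_eq_mul] at h3
      exact h3)
  rw [Subgroup.le_centralizer_iff] at key
  rw [← hk, ← Subgroup.map_eq_bot_iff]
  exact H4.eq_bot_of_pGroup_coprime ((H4.isPGroup_pCore p _).to_le (key.trans hC)) hQ'

end Cfsg.Agent.S1302
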