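import Cfsg.Statements.S1303
import Cfsg.Agent.H5.Constr

set_option autoImplicit false
open Cfsg

namespace Cfsg.Agent.S1303

abbrev SL23 := Matrix.SpecialLinearGroup (Fin 2) (ZMod 3)

theorem key1 : ∀ x y : SL23, x ^ 4 = 1 → y ^ 4 = 1 → (x * y) ^ 4 = 1 := by decide +kernel
theorem key2 : ∀ x : SL23, (∀ y : SL23, y ^ 4 = 1 → y * x = x * y) → x ^ 4 = 1 := by decide +kernel
theorem key3 : ∀ x : SL23, x ^ 2 = 1 → ∀ y : SL23, y * x = x * y := by decide +kernel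
theorem key4 : ∃ x : SL23, x ^ 3 = 1 ∧ x ≠ 1 := by decide +kernel

def Q : Subgroup SL23 where
  carrier := {x | x ^ 4 = 1}
  one_mem' := one_pow 4
  mul_mem' := fun {x y} hx hy => key1 x y hx hy
  inv_mem' := fun {x} hx => by
    show x⁻¹ ^ 4 = 1
    rw [inv_pow, show x ^ 4 = 1 from hx, inv_one]

instance : Q.Normal := ⟨fun x hx g => by
  show (g * x * g⁻¹) ^ 4 = 1
  rw [conj_pow, show x ^ 4 = 1 from hx]; simp⟩

theorem Q_le : Q ≤ Cfsg.pCore 2 SL23 :=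
  le_sSup ⟨inferInstance, H4.isPGroup_iff_forall.mpr fun x hx => ⟨2, hx⟩⟩

theorem cen_le : Subgroup.centralizer (Cfsg.pCore 2 SL23 : Set SL23) ≤ Cfsg.pCore 2 SL23 :=
  fun x hx => Q_le (key2 x fun y hy => hx y (Q_le hy))


/-- The group X = SL(2, 3): it is 2-constrained, O_{2'}(X) = 1, its centre A = Z(X) contains every involution of X = C_X(A), and X has a subgroup of order 3 (normalized by A) not contained in O_{2'}(X). -/
theorem result : Cfsg.IsPConstrained 2 (Matrix.SpecialLinearGroup (Fin 2) (ZMod 3)) ∧ Cfsg.pPrimeCore 2 (Matrix.SpecialLinearGroup (Fin 2) (ZMod 3)) = ⊥ ∧ (∀ t : Matrix.SpecialLinearGroup (Fin 2) (ZMod 3), orderOf t = 2 → t ∈ Subgroup.center (Matrix.SpecialLinearGroup (Fin 2) (ZMod 3))) ∧ ∃ Q : Subgroup (Matrix.SpecialLinearGroup (Fin 2) (ZMod 3)), Nat.card ↥Q = 3 ∧ ¬ (Q ≤ Cfsg.pPrimeCore 2 (Matrix.SpecialLinearGroup (Fin 2) (ZMod 3))) := by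
  have hb : Cfsg.pPrimeCore 2 SL23 = ⊥ := H5.pPrimeCore_eq_bot_of_centralizer_le cen_le
  refine ⟨H5.isPConstrained_of_centralizer_le cen_le, hb, fun t ht => ?_, ?_⟩
  · exact Subgroup.mem_center_iff.mpr (key3 t (by have := pow_orderOf_eq_one t; rwa [ht] at this))
  · obtain ⟨x, hx, hx1⟩ := key4
    haveI : Fact (Nat.Prime 3) := ⟨by norm_num⟩
    refine ⟨Subgroup.zpowers x, by rw [Nat.card_zpowers]; exact orderOf_eq_prime hx hx1, ?_⟩
    rw [hb]
    intro h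
    exact hx1 (Subgroup.mem_bot.mp (h (Subgroup.mem_zpowers x)))

end Cfsg.Agent.S1303
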