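import Cfsg.Statements.S1304
import Cfsg.Agent.H4.Layer

set_option autoImplicit false
open Cfsg

namespace Cfsg.Agent.S1304

/-- Let X be a perfect group and α an automorphism of X with α(x) x⁻¹ central for every x. Then α is the identity. -/
theorem result {X : Type*} [Group X] (hperf : commutator X = ⊤) (α : X ≃* X) (h : ∀ x : X, α x * x⁻¹ ∈ Subgroup.center X) : ∀ x : X, α x = x := by
  open H4 Subgroup in
  intro x
  have hx : x ∈ commutator X := hperf ▸ mem_top x
  rw [commutator_eq_closure] at hx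
  induction hx using closure_induction with
  | mem y hy =>
    obtain ⟨a, b, rfl⟩ := hy
    have ha := mem_center_iff.mp (h a)
    have hb := mem_center_iff.mp (h b)
    obtain ⟨u, hu, hu'⟩ : ∃ u, α a = u * a ∧ ∀ g, g * u = u * g := ⟨α a * a⁻¹, by simp, ha⟩
    obtain ⟨v, hv, hv'⟩ : ∃ v, α b = v * b ∧ ∀ g, g * v = v * g := ⟨α b * b⁻¹, by simp, hb⟩
    rw [commutatorElement_def, map_mul, map_mul, map_mul, map_inv, map_inv, hu, hv]
    calc u * a * (v * b) * (u * a)⁻¹ * (v * b)⁻¹
        = u * (a * v * b * a⁻¹) * u⁻¹ * b⁻¹ * v⁻¹ := by simp only [mul_inv_rev, mul_assoc]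
      _ = a * v * b * a⁻¹ * b⁻¹ * v⁻¹ := by rw [← hu', mul_inv_cancel_right]
      _ = v * (a * b * a⁻¹ * b⁻¹) * v⁻¹ := by rw [hv' a]; simp only [mul_assoc]
      _ = a * b * a⁻¹ * b⁻¹ := by rw [← hv', mul_inv_cancel_right]
  | one => exact map_one α
  | mul a b _ _ ha hb => rw [map_mul, ha, hb]
  | inv a _ ha => rw [map_inv, ha]

end Cfsg.Agent.S1304
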