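import Cfsg.Statements.S1305
import Cfsg.Agent.H4.Tri
import Cfsg.Agent.H4.LBal
import Cfsg.Agent.L.ZStar

set_option autoImplicit false
open Cfsg

namespace Cfsg.Agent.S1305

/-- Let G be a finite group of component type with the B-property and no nontrivial normal subgroup of odd order. Let a be an involution and K a component of C_G(a) such that (a) |K| is maximal among the orders of components of centralizers of involutions of G, (b) subject to (a) the 2-rank of the centralizer of K in C_G(a) is as large as possible, and (c) K has 2-rank at least 2. If B is an elementary abelian 2-subgroup of that centralizer of the largest possible order, then K is a component of C_G(b) for every non-identity b ∈ B. -/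
theorem result {G : Type*} [Group G] [Finite G] (hO : Cfsg.oddCore G = ⊥) (hB : Cfsg.HasBProperty G) (hct : Cfsg.IsComponentType G) (a : G) (ha : orderOf a = 2) (K : Subgroup G) (hKa : K ≤ Subgroup.centralizer ({a} : Set G)) (hK : Cfsg.IsComponent (K.subgroupOf (Subgroup.centralizer ({a} : Set G)))) (hmax : ∀ y : G, orderOf y = 2 → ∀ K' : Subgroup G, K' ≤ Subgroup.centralizer ({y} : Set G) → Cfsg.IsComponent (K'.subgroupOf (Subgroup.centralizer ({y} : Set G))) → Nat.card ↥K' ≤ Nat.card ↥K ∧ (Nat.card ↥K' = Nat.card ↥K → ∀ k : ℕ, Cfsg.PRankLE 2 k ↥(Subgroup.centralizer ({a} : Set G) ⊓ Subgroup.centralizer (K : Set G)) → Cfsg.PRankLE 2 k ↥(Subgroup.centralizer ({y} : Set G) ⊓ Subgroup.centralizer (K' : Set G)))) (hrk : ¬ Cfsg.PRankLE 2 1 ↥K) (B : Subgroup G) (hBle : B ≤ Subgroup.centralizer ({a} : Set G) ⊓ Subgroup.centralizer (K : Set G)) (hBel : Cfsg.IsElementaryAbelian 2 B) (hBmax : ∀ B' : Subgroup G, B' ≤ Subgroup.centralizer ({a} : Set G) ⊓ Subgroup.centralizer (K : Set G) → Cfsg.IsElementaryAbelian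 2 B' → Nat.card ↥B' ≤ Nat.card ↥B) (b : G) (hb : b ∈ B) (hb1 : b ≠ 1) : K ≤ Subgroup.centralizer ({b} : Set G) ∧ Cfsg.IsComponent (K.subgroupOf (Subgroup.centralizer ({b} : Set G))) := by
  open H4 Subgroup in
  have hK' : CompIn (centralizer {a}) K := compIn_iff.mpr ⟨hKa, hK⟩
  have ha2 := mul_self_eq_one_of_orderOf ha
  have haK : a ∈ centralizer (K : Set G) := fun k hk => mem_centralizer_singleton_iff.mp (hKa hk)
  have haB : a ∈ B := by
    have h1 := elem_sup hBel (elem_zpowers ha)
      (by rw [H4.centralizer_zpowers]; exact hBle.trans inf_le_left)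
    rw [eq_of_le_of_card_ge le_sup_left (hBmax _ (sup_le hBle (zpowers_le.mpr
      ⟨mem_centralizer_singleton_iff.mpr rfl, haK⟩)) h1)]
    exact mem_sup_right (mem_zpowers a)
  have hb2 := H5.orderOf_eq_of_elem hBel hb hb1
  have hBb := H5.le_centralizer_singleton_of_comm hBel.1 hb
  have hKb : K ≤ centralizer {b} := fun k hk =>
    mem_centralizer_singleton_iff.mpr ((hBle hb).2 k hk)
  rw [pRankLE_iff] at hrk
  push Not at hrk
  obtain ⟨U, hU, hUe, hUc⟩ := hrk
  have hd : 2 ∣ Nat.card K := by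
    obtain ⟨u, hu, hu1⟩ := (U.bot_or_exists_ne_one).resolve_left (by rintro rfl; simp at hUc)
    exact H5.orderOf_eq_of_elem hUe hu hu1 ▸ K.orderOf_dvd_natCard (hU hu)
  have h1 : CompIn (centralizer {b} ⊓ centralizer {a}) K := hK'.of_le (le_inf hKb hKa) inf_le_right
  have h2 : K ≤ layerIn (centralizer {b}) := by
    refine le_trans ?_ ((lbal_in L.zstar (isPGroup_zpowers_of_orderOf ha)
      (zpowers_le.mpr (hBb haB))).trans (pLayerIn_le_layerIn_of_bProperty hB hO hb2))
    rw [H4.centralizer_zpowers]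
    exact (h1.pcompIn hd).le_pLayerIn
  obtain ⟨D, hD, h3⟩ := h1.trichotomy h2 ha2 (le_normalizer (hBb haB))
  obtain ⟨h4, h5⟩ := hmax b hb2 D hD.le (compIn_iff.mp hD).2
  rcases h3 with ⟨-, h3⟩ | ⟨hne, hc, h3, -⟩
  · exact compIn_iff.mp (eq_of_le_of_card_ge h3 h4 ▸ hD)
  exfalso
  have hbij : Function.Bijective (diagHom D a hc).rangeRestrict :=
    (MonoidHom.rangeRestrict_surjective _).bijective_of_nat_card_le (h3 ▸ h4)
  have hinj : Function.Injective (diagHom D a hc) :=
    (Subgroup.subtype_injective _).comp hbij.1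
  have hcard : Nat.card D = Nat.card K := by rw [h3]; exact Nat.card_eq_of_bijective _ hbij
  obtain ⟨k, hk⟩ := H7.card_eq_pow_of_le (H5.isPGroup_of_elem hBel)
  have h6 := pRankLE_iff.mp (h5 hcard k (pRankLE_iff.mpr fun E h h' => hk ▸ hBmax E h h'))
  have hD' := hD.conjS_of_mem (hBb haB)
  have hKD : K ≤ D ⊔ conjS a D := h3 ▸ (range_diagHom_le ha2 hc).trans inf_le_left
  set B₀ := B ⊓ normalizer (D : Set G)
  have hB₀ : ⁅B₀, D⁆ = ⊥ := by
    refine commutator_eq_bot_of_diag hc hD.perfect (fun β hβ => ?_) fun d hd β hβ =>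
      ((hBle hβ.1).2 _ (h3.ge ⟨⟨d, hd⟩, rfl⟩)).symm
    rw [mem_normalizer_iff_conjS, conjS_conjS, H5.comm_of_isMulCommutative hBel.1 hβ.1 haB,
      ← conjS_conjS, mem_normalizer_iff_conjS.mp hβ.2]
  have hB₀' : B₀ ≤ centralizer (conjS a D : Set G) := by
    rw [← conjS_centralizer, ← mem_normalizer_iff_conjS.mp
      (H5.le_normalizer_of_comm (B := B₀) hBel.1 inf_le_left haB)]
    exact conjS_mono a (commutator_eq_bot_iff_le_centralizer.mp hB₀)
  have hBB : B ≤ B₀ ⊔ zpowers a := by
    intro β hβ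
    have h7 := hD.conjS_of_mem (hBb hβ)
    rcases h7.eq_or_commute hD with e | e
    · exact mem_sup_left ⟨hβ, mem_normalizer_iff_conjS.mpr e⟩
    rcases h7.eq_or_commute hD' with e' | e'
    · rw [← mul_inv_cancel_left a β]
      refine mul_mem (mem_sup_right (mem_zpowers a)) (mem_sup_left (mem_inf.mpr ⟨mul_mem (inv_mem haB) hβ, ?_⟩))
      rw [mem_normalizer_iff_conjS, ← conjS_conjS, e', conjS_inv_conjS]
    · exfalso
      have h8 := commutator_eq_bot_mono (commutator_sup_right_eq_bot e e') le_rfl hKD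
      rw [← mem_normalizer_iff_conjS.mp (centralizer_le_normalizer _ (hBle hβ).2),
        ← conjS_commutator, Subgroup.map_eq_bot_iff_of_injective _ (MulAut.conj β).injective] at h8
      have h9 := congrArg (conjS a) h8
      rw [conjS_commutator, mem_normalizer_iff_conjS.mp (centralizer_le_normalizer _ haK)] at h9
      exact hK'.qs.commutator_self_ne_bot (commutator_eq_bot_mono (commutator_sup_left_eq_bot h8
        (h9.trans (Subgroup.map_bot _))) hKD le_rfl)
  -- the four-group in `D^a`
  set φ : D →* G := (MulAut.conj a).toMonoidHom.comp D.subtype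
  have hφ : Function.Injective φ := (MulAut.conj a).injective.comp D.subtype_injective
  set U' := (U.comap (diagHom D a hc)).map φ
  have hU'c : Nat.card U' = Nat.card U := by
    rw [card_map_of_injective hφ, ← card_map_of_injective hinj, map_comap_eq_self (h3 ▸ hU)]
  have hU'D : U' ≤ conjS a D := by
    rintro _ ⟨d, -, rfl⟩
    exact conj_mem_conjS d.2
  have hU'e : Cfsg.IsElementaryAbelian 2 U' := by
    refine ⟨H5.isMulCommutative_of_forall ?_, ?_⟩
    · rintro _ ⟨x, hx, rfl⟩ _ ⟨y, hy, rfl⟩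
      rw [← map_mul, ← map_mul, hinj (show diagHom D a hc (x * y) = diagHom D a hc (y * x) by
        rw [map_mul, map_mul, H5.comm_of_isMulCommutative hUe.1 hx hy])]
    · rintro _ ⟨x, hx, rfl⟩
      rw [← map_pow, hinj (show diagHom D a hc (x ^ 2) = diagHom D a hc 1 by
        rw [map_pow, hUe.2 _ hx, map_one]), map_one]
  have hE := h6 _ (sup_le (le_inf (inf_le_left.trans hBb) (commutator_eq_bot_iff_le_centralizer.mp hB₀))
    (le_inf (hU'D.trans hD'.le) (hU'D.trans (le_centralizer_iff.mp
      (commutator_eq_bot_iff_le_centralizer.mp hc)))))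
    (elem_sup (H5.elem_of_le hBel inf_le_left) hU'e (hB₀'.trans (centralizer_anti hU'D)))
  have hdis : B₀ ⊓ U' = ⊥ := by
    rw [eq_bot_iff]
    rintro _ ⟨hz, ⟨d, hd, rfl⟩⟩
    have e1 : a * d * a⁻¹ * a = a * (a * d * a⁻¹) := H5.comm_of_isMulCommutative hBel.1 hz.1 haB
    have e2 : (d : G) = a * d * a⁻¹ := by
      rw [inv_mul_cancel_right, mul_left_cancel_iff] at e1; exact e1
    have e3 : diagHom D a hc d = diagHom D a hc 1 := by
      rw [map_one, diagHom_apply, ← pow_one (a * d * a⁻¹)]
      nth_rewrite 1 [e2]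
      rw [← pow_succ']
      exact hBel.2 _ hz.1
    rw [hinj e3, map_one]
    exact one_mem _
  rw [H5.card_sup_of_disjoint (le_normalizer_of_le_centralizer (le_centralizer_iff.mp
    (hB₀'.trans (centralizer_anti hU'D)))) hdis, hU'c, ← hk] at hE
  have h7 := (card_le_of_le hBB).trans (Nat.le_of_dvd (Nat.mul_pos Nat.card_pos Nat.card_pos)
    (H5.card_sup_dvd (zpowers_le.mpr (H5.le_normalizer_of_comm hBel.1 inf_le_left haB))))
  rw [Nat.card_zpowers, ha] at h7
  have h8 : 0 < Nat.card B₀ := Nat.card_pos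
  nlinarith

end Cfsg.Agent.S1305
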