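import Cfsg.Statements.S1306
import Cfsg.Agent.H4.Layer

set_option autoImplicit false
open Cfsg

namespace Cfsg.Agent.S1306

/-- Let G be finite, x an involution and L ≤ C_G(x) a component of C_G(x). Suppose L is a component of C_G(y) for every involution y ∈ C_G(L), and ⁅L, g L g⁻¹⁆ ≠ 1 whenever g L g⁻¹ ≠ L. Then L is a standard subgroup of G. -/
theorem result {G : Type*} [Group G] [Finite G] (x : G) (hx : orderOf x = 2) (L : Subgroup G) (hLx : L ≤ Subgroup.centralizer ({x} : Set G)) (hL : Cfsg.IsComponent (L.subgroupOf (Subgroup.centralizer ({x} : Set G)))) (hne : ∀ y : G, orderOf y = 2 → y ∈ Subgroup.centralizer (L : Set G) → L ≤ Subgroup.centralizer ({y} : Set G) ∧ Cfsg.IsComponent (L.subgroupOf (Subgroup.centralizer ({y} : Set G)))) (hnc : ∀ g : G, L.map (MulAut.conj g).toMonoidHom ≠ L → ⁅L, L.map (MulAut.conj g).toMonoidHom⁆ ≠ ⊥) : Cfsg.IsStandardSubgroup L := by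
  open H4 Subgroup in
  have hL' : CompIn (centralizer {x}) L := compIn_iff.mpr ⟨hLx, hL⟩
  have key : ∀ (y g : G), orderOf y = 2 → y ∈ centralizer (L : Set G) →
      y ∈ centralizer (conjS g L : Set G) → g ∈ normalizer (L : Set G) := by
    intro y g hy h1 h2
    have c1 : CompIn (centralizer {y}) L := compIn_iff.mpr (hne y hy h1)
    rw [← conjS_centralizer, mem_conjS] at h2
    have hy' : orderOf (g⁻¹ * y * g) = 2 := by
      rw [← hy]
      simpa using (MulAut.conj g⁻¹).orderOf_eq y
    have c2 := (compIn_iff.mpr (hne _ hy' h2)).conjS g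
    rw [conjS_centralizer_singleton, show g * (g⁻¹ * y * g) * g⁻¹ = y by group] at c2
    rw [mem_normalizer_iff_conjS]
    by_contra hc
    rcases c1.eq_or_commute c2 with h | h
    · exact hc h.symm
    · exact hnc g hc h
  have hxL : x ∈ centralizer (L : Set G) := fun l hl =>
    (mem_centralizer_singleton_iff.mp (hLx hl))
  refine ⟨qs_iff.mp hL'.qs, ⟨?_, fun g hg => ?_⟩, hnc, ?_⟩
  · exact even_iff_two_dvd.mpr (hx ▸ orderOf_dvd_natCard _ hxL)
  · rw [← Nat.not_even_iff_odd, even_iff_two_dvd]
    intro hd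
    obtain ⟨y, hy, hy2⟩ := exists_orderOf_eq_prime_mem hd
    refine hg (normalizer_le_normalizer_centralizer L (key y g hy2 hy.1 ?_))
    rw [← conjS_centralizer]
    exact hy.2
  · refine le_antisymm (normalizer_le_normalizer_centralizer L) fun g hg => key x g hx hxL ?_
    rw [← conjS_centralizer, mem_normalizer_iff_conjS.mp hg]
    exact hxL

end Cfsg.Agent.S1306
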