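import Cfsg.Statements.S1307
import Cfsg.Agent.H4.Tri
import Cfsg.Agent.L.ZStar

set_option autoImplicit false
open Cfsg

namespace Cfsg.Agent.S1307

/-- Let G be finite, x an involution and L ≤ C_G(x) a component of C_G(x) of even order and 2-rank 1, such that L is a component of C_G(y) for every involution y ∈ C_G(L). Then some involution of L is a classical involution of G. -/
theorem result {G : Type*} [Group G] [Finite G] (x : G) (hx : orderOf x = 2) (L : Subgroup G) (hLx : L ≤ Subgroup.centralizer ({x} : Set G)) (hL : Cfsg.IsComponent (L.subgroupOf (Subgroup.centralizer ({x} : Set G)))) (heven : Even (Nat.card ↥L)) (hrk : Cfsg.PRankLE 2 1 ↥L) (hne : ∀ y : G, orderOf y = 2 → y ∈ Subgroup.centralizer (L : Set G) → L ≤ Subgroup.centralizer ({y} : Set G) ∧ Cfsg.IsComponent (L.subgroupOf (Subgroup.centralizer ({y} : Set G)))) : ∃ t ∈ L, Cfsg.IsClassicalInvolution t := by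
  open H4 Subgroup in
  have hL' : CompIn (centralizer {x}) L := compIn_iff.mpr ⟨hLx, hL⟩
  have hd := even_iff_two_dvd.mp heven
  obtain ⟨S⟩ : Nonempty (Sylow 2 L) := inferInstance
  have hS := (H7.isCyclic_or_quaternion S.isPGroup' (pRankLE_of_injective _
    (S : Subgroup L).subtype_injective hrk)).resolve_left ((hL'.qs.pqs hd).not_isCyclic_sylow S)
  obtain ⟨t, ht, ht2⟩ := exists_orderOf_eq_prime_mem hd
  have ht2' : orderOf (⟨t, ht⟩ : L) = 2 := (orderOf_coe _).symm.trans ht2
  have h1 := _root_.L.zstar' ht2' fun g hg => by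
    have e := mul_self_eq_one_of_orderOf ht2
    refine Subtype.ext (eq_of_pRankLE e (show ((g : G) * t * (g : G)⁻¹ : G) * (g * t * (g : G)⁻¹) = 1 by
      rw [show ((g : G) * t * (g : G)⁻¹ : G) * (g * t * (g : G)⁻¹) = g * (t * t) * (g : G)⁻¹ by group, e]; group)
      (congrArg Subtype.val hg.eq) hrk ht (mul_mem (mul_mem g.2 ht) (inv_mem g.2))
      (ne_one_of_orderOf ht2) fun e => ne_one_of_orderOf ht2 (conj_eq_one_iff.mp e)).symm
  have h2 : t ∈ centralizer (L : Set G) := by
    have hO : pPrimeCoreIn 2 L ≤ centralizer (L : Set G) := le_centralizer_iff.mp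
      (commutator_eq_bot_iff_le_centralizer.mp ((hL'.pcompIn hd).qs_iff'.mp hL'.qs))
    refine zpowers_le.mp (commutator_eq_bot_iff_le_centralizer.mp
      (commutator_eq_bot_of_perfect' hL'.perfect ?_))
    rw [commutator_comm]
    exact (le_cMod_iff.mp (zpowers_le.mpr ⟨H4.normalizer_le_normalizer_centralizer L
      (le_normalizer ht), fun k hk => hO ⟨_, h1 ⟨k, hk⟩, rfl⟩⟩)).2
  obtain ⟨h3, h4⟩ := hne t ht2 h2
  exact ⟨t, ht, ht2, L, h3, ht, h4.1, S, hS⟩

end Cfsg.Agent.S1307
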