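import Cfsg.Statements.S1314
import Cfsg.Agent.H4.Layer

set_option autoImplicit false
open Cfsg

namespace Cfsg.Agent.S1314

/-- Let x be an involution of a group G and L a perfect subgroup with ⁅L, x L x⁻¹⁆ = 1. Then l ↦ l (x l x⁻¹) is a group homomorphism π from L to G whose kernel is central in L and whose image lies in C_G(x); and the commutator subgroup of C_{L ⊔ xLx⁻¹}(x) equals the image of π. -/
theorem result {G : Type*} [Group G] [Finite G] (x : G) (hx : orderOf x = 2) (L : Subgroup G) (hperf : ⁅L, L⁆ = L) (hcomm : ⁅L, L.map (MulAut.conj x).toMonoidHom⁆ = ⊥) : ∃ π : ↥L →* G, (∀ l : ↥L, π l = (l : G) * (x * (l : G) * x⁻¹)) ∧ π.ker ≤ Subgroup.center ↥L ∧ π.range ≤ Subgroup.centralizer ({x} : Set G) ∧ ⁅(L ⊔ L.map (MulAut.conj x).toMonoidHom) ⊓ Subgroup.centralizer ({x} : Set G), (L ⊔ L.map (MulAut.conj x).toMonoidHom) ⊓ Subgroup.centralizer ({x} : Set G)⁆ = π.range := by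
  open H4 Subgroup in
  have hc := commutator_eq_bot_iff'.mp hcomm
  have hx2 : x * x = 1 := by rw [← sq, ← hx, pow_orderOf_eq_one]
  have hxi : x⁻¹ = x := inv_eq_of_mul_eq_one_right hx2
  have hc' : ∀ a ∈ L, ∀ b ∈ L, a * (x * b * x⁻¹) = x * b * x⁻¹ * a :=
    fun a ha b hb => hc a ha _ (conj_mem_conjS hb)
  let π : L →* G := MonoidHom.mk' (fun l => (l : G) * (x * l * x⁻¹)) (by
    rintro ⟨a, ha⟩ ⟨b, hb⟩
    simp only [MulMemClass.mk_mul_mk]
    calc a * b * (x * (a * b) * x⁻¹) = a * (b * (x * a * x⁻¹)) * (x * b * x⁻¹) := by group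
      _ = a * (x * a * x⁻¹ * b) * (x * b * x⁻¹) := by rw [hc' b hb a ha]
      _ = _ := by group)
  have hπ : ∀ l : L, π l = (l : G) * (x * l * x⁻¹) := fun _ => rfl
  have hr : π.range ≤ centralizer {x} := by
    rintro _ ⟨⟨l, hl⟩, rfl⟩
    rw [mem_centralizer_singleton_iff, hπ]
    show l * (x * l * x⁻¹) * x = x * (l * (x * l * x⁻¹))
    calc l * (x * l * x⁻¹) * x = (x * x) * l * x * l := by rw [hx2]; group
      _ = x * (x * l * x⁻¹ * l) := by rw [hxi]; group
      _ = _ := by rw [← hc' l hl l hl]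
  have hr2 : π.range ≤ L ⊔ conjS x L := by
    rintro _ ⟨⟨l, hl⟩, rfl⟩
    exact mul_mem_sup hl (conj_mem_conjS hl)
  have hperf' : ⁅π.range, π.range⁆ = π.range := by
    have := isPerfect_iff.mpr hperf
    exact isPerfect_iff.mp (Group.IsPerfect.range π)
  refine ⟨π, hπ, ?_, hr, le_antisymm ?_ ?_⟩
  · rintro ⟨l, hl⟩ h1
    rw [MonoidHom.mem_ker, hπ, mul_eq_one_iff_eq_inv] at h1
    rw [mem_center_iff]
    rintro ⟨a, ha⟩
    apply Subtype.ext
    show a * l = l * a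
    have h2 : l = x * l⁻¹ * x⁻¹ := by simpa [mul_assoc] using h1
    rw [h2]
    exact hc' a ha _ (inv_mem hl)
  · set Z := (L ⊔ conjS x L) ⊓ centralizer ((L ⊔ conjS x L : Subgroup G) : Set G)
    have hZ1 : ⁅π.range, Z⁆ = ⊥ := by
      rw [commutator_comm, commutator_eq_bot_iff_le_centralizer]
      exact inf_le_right.trans (centralizer_anti hr2)
    have hZ2 : ⁅Z, Z⁆ = ⊥ := by
      rw [commutator_eq_bot_iff_le_centralizer]
      exact inf_le_right.trans (centralizer_anti inf_le_left)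
    have h1 : (L ⊔ conjS x L) ⊓ centralizer {x} ≤ π.range ⊔ Z := by
      rintro y ⟨hy, hyx⟩
      obtain ⟨a, ha, b, hb, rfl⟩ :=
        (mem_sup_of_le_normalizer_right (le_normalizer_of_commutator_eq_bot hcomm)).mp hy
      obtain ⟨b, hb, rfl⟩ := hb
      have hb' : b ∈ L := hb
      simp only [MulEquiv.toMonoidHom_eq_coe, MonoidHom.coe_coe, MulAut.conj_apply] at hyx ⊢
      have e1 : a * (x * b * x⁻¹) = π ⟨a, ha⟩ * (x * (a⁻¹ * b) * x⁻¹) := by
        rw [hπ]; group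
      have hyx' := mem_centralizer_singleton_iff.mp hyx
      have e2 : x * (a⁻¹ * b) * x⁻¹ = a⁻¹ * b := by
        have e3 : a * (x * b * x⁻¹) = x * a * x⁻¹ * b := by
          calc a * (x * b * x⁻¹) = x⁻¹ * (x * (a * (x * b * x⁻¹))) := by group
            _ = x⁻¹ * (a * (x * b * x⁻¹) * x) := by rw [hyx']
            _ = x⁻¹ * a * x * b := by group
            _ = x * a * x⁻¹ * b := by rw [hxi]
        calc x * (a⁻¹ * b) * x⁻¹ = (x * a * x⁻¹)⁻¹ * a⁻¹ * (a * (x * b * x⁻¹)) := by group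
          _ = (x * a * x⁻¹)⁻¹ * a⁻¹ * (x * a * x⁻¹ * b) := by rw [e3]
          _ = (x * a * x⁻¹)⁻¹ * (a⁻¹ * (x * a * x⁻¹)) * b := by group
          _ = (x * a * x⁻¹)⁻¹ * (x * a * x⁻¹ * a⁻¹) * b := by rw [hc' _ (inv_mem ha) a ha]
          _ = a⁻¹ * b := by group
      have hm : a⁻¹ * b ∈ L := mul_mem (inv_mem ha) hb'
      rw [e1]
      refine mul_mem_sup ⟨_, rfl⟩ ⟨mem_sup_right (conj_mem_conjS hm), ?_⟩
      rw [centralizer_sup]
      refine ⟨le_centralizer_iff.mp (commutator_eq_bot_iff_le_centralizer.mp hcomm)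
        (conj_mem_conjS hm), ?_⟩
      rw [e2]
      exact commutator_eq_bot_iff_le_centralizer.mp hcomm hm
    refine (commutator_mono h1 h1).trans ?_
    rw [commutator_sup_of_commute hZ1 (by rwa [commutator_comm]) hZ1 hZ1, hZ2, hperf', sup_bot_eq]
  · rw [← hperf']
    exact commutator_mono (le_inf hr2 hr) (le_inf hr2 hr)

end Cfsg.Agent.S1314
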