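import Cfsg.Statements.S1315
import Cfsg.Agent.IC.E

set_option autoImplicit false
open Cfsg

namespace Cfsg.Agent.S1315

/-- Let G be finite and J ≠ K subgroups, each containing exactly one involution, z(J) resp. z(K), each a 2-component of the centralizer of its involution, with J / O(J) and K / O(K) both isomorphic to SL(2, F) for one finite field F of odd order, or both non-split double covers of A7. Then (i) every 2-element of K of order at least 4 centralizing z(J) normalizes J; (ii) if z(J) normalizes K then z(K) normalizes J. -/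
theorem result {G : Type*} [Group G] [Finite G] (J K : Subgroup G) (hJK : J ≠ K) (zJ zK : G) (hzJ : zJ ∈ J ∧ orderOf zJ = 2 ∧ ∀ t ∈ J, orderOf t = 2 → t = zJ) (hzK : zK ∈ K ∧ orderOf zK = 2 ∧ ∀ t ∈ K, orderOf t = 2 → t = zK) (hJ : J ≤ Subgroup.centralizer ({zJ} : Set G) ∧ Cfsg.IsPComponent 2 (J.subgroupOf (Subgroup.centralizer ({zJ} : Set G)))) (hK : K ≤ Subgroup.centralizer ({zK} : Set G) ∧ Cfsg.IsPComponent 2 (K.subgroupOf (Subgroup.centralizer ({zK} : Set G)))) (htype : (∃ (F : Type) (_ : Field F) (_ : Fintype F), Odd (Fintype.card F) ∧ Nonempty (↥J ⧸ Cfsg.oddCore ↥J ≃* Matrix.SpecialLinearGroup (Fin 2) F) ∧ Nonempty (↥K ⧸ Cfsg.oddCore ↥K ≃* Matrix.SpecialLinearGroup (Fin 2) F)) ∨ (Cfsg.IsNonsplitDoubleCover (↥J ⧸ Cfsg.oddCore ↥J) ↥(alternatingGroup (Fin 7)) ∧ Cfsg.IsNonsplitDoubleCover (↥K ⧸ Cfsg.oddCore ↥K) ↥(alternatingGroup (Fin 7)))) : (∀ y ∈ K, IsPGroup 2 ↥(Subgroup.zpowers y) → 4 ≤ orderOf y → y * zJ = zJ * y → y ∈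 Subgroup.normalizer (J : Set G)) ∧ (zJ ∈ Subgroup.normalizer (K : Set G) → zK ∈ Subgroup.normalizer (J : Set G)) := by
    have key : ∀ (L : Subgroup G) (z : G), (z ∈ L ∧ orderOf z = 2 ∧ ∀ t ∈ L, orderOf t = 2 → t = z) →
        (L ≤ Subgroup.centralizer ({z} : Set G) ∧
          Cfsg.IsPComponent 2 (L.subgroupOf (Subgroup.centralizer ({z} : Set G)))) → IC.U L z :=
      fun L z h1 h2 => ⟨H4.pcompIn_iff.2 h2, h1.1, H4.mul_self_eq_one_of_orderOf h1.2.1,
        H4.ne_one_of_orderOf h1.2.1, fun t ht e => (eq_or_ne t 1).imp id fun e1 =>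
          h1.2.2 t ht (H4.orderOf_eq_two' e e1)⟩
    have uJ := key J zJ hzJ hJ
    have uK := key K zK hzK hK
    refine ⟨fun y hy h1 h2 h3 => uJ.one uK hJK hy (IC.P2.of_mem h1 (Subgroup.mem_zpowers y))
      (fun e => ?_) (IC.c1.2 h3), uJ.two uK⟩
    have := orderOf_le_of_pow_eq_one two_pos (by rw [pow_two, e] : y ^ 2 = 1)
    omega

end Cfsg.Agent.S1315
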