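import Cfsg.Statements.S1316
import Cfsg.Agent.H4.Layer

set_option autoImplicit false
open Cfsg

namespace Cfsg.Agent.S1316

/-- For a finite group X, E(X) equals the intersection of the derived series of F*(X) (its last term). -/
theorem result {X : Type*} [Group X] [Finite X] : (⨅ n : ℕ, (derivedSeries ↥(Cfsg.generalizedFittingSubgroup X) n).map (Cfsg.generalizedFittingSubgroup X).subtype) = Cfsg.layer X := by
  open H4 Subgroup in
  have key : ∀ n, (derivedSeries ↥(generalizedFittingSubgroup X) n).map
      (generalizedFittingSubgroup X).subtype =
      layer X ⊔ (derivedSeries ↥(fittingSubgroup X) n).map (fittingSubgroup X).subtype := by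
    intro n
    induction n with
    | zero =>
      simp only [derivedSeries_zero, ← MonoidHom.range_eq_map, range_subtype]; rfl
    | succ n ih =>
      have h1 : ⁅layer X, (derivedSeries ↥(fittingSubgroup X) n).map (fittingSubgroup X).subtype⁆
          = ⊥ := commutator_eq_bot_mono commutator_layer_fitting le_rfl (map_subtype_le _)
      rw [derivedSeries_succ, derivedSeries_succ, map_commutator, map_commutator, ih,
        commutator_sup_of_commute h1 (by rwa [commutator_comm]) h1 h1, layer_perfect]
  simp_rw [key]
  refine le_antisymm ?_ (le_iInf fun n => le_sup_left)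
  obtain ⟨n, hn⟩ := (isSolvable_fitting X).solvable
  refine (iInf_le _ n).trans ?_
  rw [hn, Subgroup.map_bot, sup_bot_eq]

end Cfsg.Agent.S1316
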