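import Cfsg.Statements.S1318
import Cfsg.Agent.H4.Layer

set_option autoImplicit false
open Cfsg

namespace Cfsg.Agent.S1318

/-- Let X be finite and S ≤ F*(X) a subgroup subnormal in F*(X). Then F(S) = F(X) ∩ S (inside X) and S = F(S)E(S). -/
theorem result {X : Type*} [Group X] [Finite X] (S : Subgroup X) (hS : S ≤ Cfsg.generalizedFittingSubgroup X) (hsn : (S.subgroupOf (Cfsg.generalizedFittingSubgroup X)).IsSubnormal) : (Cfsg.fittingSubgroup ↥S).map S.subtype = Cfsg.fittingSubgroup X ⊓ S ∧ Cfsg.fittingSubgroup ↥S ⊔ Cfsg.layer ↥S = ⊤ := by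
  open H4 Subgroup in
  have h1 : S.IsSubnormal := IsSubnormal.trans hS hsn (Normal.isSubnormal inferInstance)
  refine ⟨fittingIn_eq_inf h1, ?_⟩
  have h2 := (sn_top_iff.mpr h1).eq_gfitIn_of_le (by rwa [gfitIn_top])
  apply map_injective S.subtype_injective
  rw [← MonoidHom.range_eq_map, range_subtype, sup_comm]
  exact h2

end Cfsg.Agent.S1318
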