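import Cfsg.Statements.S1319
import Cfsg.Agent.H4.Layer

set_option autoImplicit false
open Cfsg

namespace Cfsg.Agent.S1319

/-- Let A be a subnormal subgroup of the finite group X with E(A) = A. Then A ≤ E(X) and A is normal in E(X). -/
theorem result {X : Type*} [Group X] [Finite X] (A : Subgroup X) (hsn : A.IsSubnormal) (hA : Cfsg.layer ↥A = ⊤) : A ≤ Cfsg.layer X ∧ (A.subgroupOf (Cfsg.layer X)).Normal := by
  open H4 Subgroup in
  have h1 : layerIn A = A := by rw [layerIn, hA, ← MonoidHom.range_eq_map, range_subtype]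
  have h2 : A ≤ layer X := h1 ▸ layerIn_le_layer hsn
  refine ⟨h2, normal_subgroupOf_of_le_normalizer (layer_le_iff.mpr fun K hK => ?_)⟩
  rcases (compIn_top_iff.mpr hK).le_or_commute (sn_top_iff.mpr hsn) with h | h
  · exact h.trans le_normalizer
  · exact le_normalizer_of_commutator_eq_bot h

end Cfsg.Agent.S1319
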