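import Cfsg.Statements.S1326
import Cfsg.Agent.H4.Layer

set_option autoImplicit false
open Cfsg

namespace Cfsg.Agent.S1326

/-- For a finite group X: the Fitting subgroup contains its centralizer if and only if the layer of X is trivial. -/
theorem result {X : Type*} [Group X] [Finite X] : Subgroup.centralizer (Cfsg.fittingSubgroup X : Set X) ≤ Cfsg.fittingSubgroup X ↔ Cfsg.layer X = ⊥ := by
  open H4 Subgroup in
  constructor
  · intro h
    exact eq_bot_of_perfect_of_solvable layer_perfect (isSolvable_of_le
      ((commutator_eq_bot_iff_le_centralizer.mp commutator_layer_fitting).trans h)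
      (isSolvable_fitting X))
  · intro h
    have := centralizer_gfit_le (G := X)
    rwa [gfit_eq, h, bot_sup_eq] at this

end Cfsg.Agent.S1326
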