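import Cfsg.Statements.S1328
import Cfsg.Agent.H4.Asch31

set_option autoImplicit false
open Cfsg

namespace Cfsg.Agent.S1328

/-- Let G be finite, H ≤ G with O(H) = 1, t an involution of G normalizing H, and Y a nontrivial subgroup of O(C_H(t)). Then some component E of H is normalized by t and by Y and centralized by neither t nor Y. -/
theorem result {G : Type*} [Group G] [Finite G] (H : Subgroup G) (hO : Cfsg.oddCore ↥H = ⊥) (t : G) (ht : orderOf t = 2) (htH : t ∈ Subgroup.normalizer (H : Set G)) (Y : Subgroup G) (hY1 : Y ≠ ⊥) (hY : Y ≤ (Cfsg.oddCore ↥(H ⊓ Subgroup.centralizer ({t} : Set G))).map (H ⊓ Subgroup.centralizer ({t} : Set G)).subtype) : ∃ E : Subgroup ↥H, Cfsg.IsComponent E ∧ (E.map H.subtype).map (MulAut.conj t).toMonoidHom = E.map H.subtype ∧ Y ≤ Subgroup.normalizer ((E.map H.subtype : Subgroup G) : Set G) ∧ ¬ (t ∈ Subgroup.centralizer ((E.map H.subtype : Subgroup G) : Set G)) ∧ ¬ (Y ≤ Subgroup.centralizer ((E.map H.subtype : Subgroup G) : Set G)) := by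
  open H4 Subgroup in
  have hO' : pPrimeCoreIn 2 H = ⊥ := pPrimeCoreIn_eq_bot_iff.mpr hO
  have hloc := loc_inf_centralizer_singleton ht htH
  have hYo : (Nat.card Y).Coprime 2 := coprime_card_of_le hY (coprime_card_pPrimeCoreIn 2 _)
  obtain ⟨K, hK, hKY⟩ : ∃ K, CompIn H K ∧ ⁅K, Y⁆ ≠ ⊥ := by
    by_contra hc
    push Not at hc
    have h1 := le_fittingIn_of_centralizes (hY.trans ((pPrimeCoreIn_le 2 _).trans inf_le_left)) hc (by
      rw [fittingIn_eq_pCoreIn hO', commutator_comm, commutator_eq_bot_iff_le_centralizer]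
      exact hY.trans (le_sup_right.trans hloc.opE_le_centralizer_pCoreIn))
    rw [fittingIn_eq_pCoreIn hO'] at h1
    exact hY1 (eq_bot_of_pGroup_coprime ((isPGroup_pCoreIn 2 H).to_le h1) hYo)
  have h2 : ⁅K, zpowers t⁆ = K := by
    by_contra hne
    exact hKY (commutator_eq_bot_mono (hK.commute_core hO' ht htH hne) le_rfl hY)
  refine ⟨K.subgroupOf H, (compIn_iff.mp hK).2, ?_⟩
  rw [map_subgroupOf_eq_of_le hK.le]
  refine ⟨mem_normalizer_iff_conjS.mp ?_, hY.trans (le_sup_right.trans
    (hloc.opE_le_normalizer hO' hK)), fun h => hK.qs.ne_bot ?_, fun h => hKY ?_⟩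
  · rw [← h2]
    exact normalizer_commutator_ge_right _ _ (mem_zpowers t)
  · rw [← h2, commutator_comm, commutator_eq_bot_iff_le_centralizer]
    exact zpowers_le.mpr h
  · rwa [commutator_comm, commutator_eq_bot_iff_le_centralizer]

end Cfsg.Agent.S1328
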