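import Cfsg.Statements.S1329
import Cfsg.Agent.H5.GenCom
import Cfsg.Agent.FT.PF14

set_option autoImplicit false
open Cfsg

namespace Cfsg.Agent.S1329

/-- Let A be an abelian 2-subgroup of the finite group G, B ≤ A, and Y a subgroup of odd order normalized by A with ⁅Y, A⁆ = Y. Then Y ∩ C_G(B) is generated by the subgroups Y ∩ C_G(B) ∩ ⁅Y ∩ C_G(B₀), A⁆, B₀ ranging over the subgroups of B with B / B₀ cyclic. -/
theorem result {G : Type*} [Group G] [Finite G] (A B Y : Subgroup G) (hA2 : IsPGroup 2 ↥A) (hAc : IsMulCommutative ↥A) (hB : B ≤ A) (hYodd : Odd (Nat.card ↥Y)) (hAY : A ≤ Subgroup.normalizer (Y : Set G)) (hYA : ⁅Y, A⁆ = Y) : Y ⊓ Subgroup.centralizer (B : Set G) = ⨆ B₀ : {B₀ : Subgroup G // B₀ ≤ B ∧ ∀ [(B₀.subgroupOf B).Normal], IsCyclic (↥B ⧸ B₀.subgroupOf B)}, Y ⊓ Subgroup.centralizer (B : Set G) ⊓ ⁅Y ⊓ Subgroup.centralizer ((B₀ : Subgroup G) : Set G), A⁆ := by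
  refine le_antisymm ?_ (iSup_le fun _ => inf_le_left)
  nth_rewrite 1 [← hYA]
  exact H5.gencom' hAc hB (FT.ftThm _ hYodd) hAY
    (H5.coprime_card_of_isPGroup hA2 hYodd.not_two_dvd_nat) fun B₀ h => le_iSup
      (fun B₀ : {B₀ : Subgroup G // B₀ ≤ B ∧ ∀ [(B₀.subgroupOf B).Normal],
        IsCyclic (↥B ⧸ B₀.subgroupOf B)} => Y ⊓ Subgroup.centralizer (B : Set G) ⊓
          ⁅Y ⊓ Subgroup.centralizer ((B₀ : Subgroup G) : Set G), A⁆) ⟨B₀, h.1, h.isCyclic⟩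

end Cfsg.Agent.S1329
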