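import Cfsg.Statements.S1343
import Cfsg.Agent.H4.LBal

set_option autoImplicit false
open Cfsg

namespace Cfsg.Agent.S1343

/-- Let X be finite. Then L*_{2'}(X) = L_{2'}(X) ⊔ F for some subgroup F of odd order normalized by a Sylow 2-subgroup of X. -/
theorem result {X : Type*} [Group X] [Finite X] : ∃ F : Subgroup X, Odd (Nat.card ↥F) ∧ (∃ S : Sylow 2 X, (S : Subgroup X) ≤ Subgroup.normalizer (F : Set X)) ∧ Cfsg.extendedTwoLayer X = Cfsg.pLayer 2 X ⊔ F := by
  open H4 Subgroup in
  obtain ⟨S⟩ : Nonempty (Sylow 2 X) := inferInstance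
  have hT := (H5.isSylowOf_top S).inf_of_le_normalizer (N := lo X) le_top le_normalizer_of_normal
  refine ⟨Cfsg.pPrimeCore 2 X ⊔ pPrimeCoreIn 2 (centralizer ((S : Subgroup X) ⊓ lo X : Subgroup X)),
    ?_, ⟨S, ?_⟩, ?_⟩
  · rw [← Nat.coprime_two_right]
    exact (H5.coprime_sup le_normalizer_of_normal (coprime_card_pPrimeCore 2 X).symm
      (coprime_card_pPrimeCoreIn 2 _).symm).symm
  · exact H4.le_normalizer_sup le_normalizer_of_normal ((H4.le_normalizer_centralizer
      (H4.le_normalizer_inf le_normalizer le_normalizer_of_normal)).trans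
      (normalizer_le_normalizer_pPrimeCoreIn 2 _))
  · rw [extendedTwoLayer_eq hT, sup_assoc]

end Cfsg.Agent.S1343
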