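import Cfsg.Statements.S1346
import Cfsg.Agent.H4.ZStmts
import Cfsg.Agent.L.ZStar

set_option autoImplicit false
open Cfsg

namespace Cfsg.Agent.S1346

/-- Let G be a finite group all of whose 2-local subgroups have known non-abelian composition factors, and x, y commuting involutions. Then the extended 2-layer of L*_{2'}(C_G(x)) ∩ C_G(y) (as a group) is contained in L*_{2'}(C_G(y)). -/
theorem result {G : Type*} [Group G] [Finite G] (hK : ∀ T : Subgroup G, IsPGroup 2 ↥T → T ≠ ⊥ → Cfsg.IsCompositionKGroup ↥(Subgroup.normalizer (T : Set G))) (x y : G) (hx : orderOf x = 2) (hy : orderOf y = 2) (hxy : x * y = y * x) : (Cfsg.extendedTwoLayer ↥((Cfsg.extendedTwoLayer ↥(Subgroup.centralizer ({x} : Set G))).map (Subgroup.centralizer ({x} : Set G)).subtype ⊓ Subgroup.centralizer ({y} : Set G))).map ((Cfsg.extendedTwoLayer ↥(Subgroup.centralizer ({x} : Set G))).map (Subgroup.centralizer ({x} : Set G)).subtype ⊓ Subgroup.centralizer ({y} : Set G)).subtype ≤ (Cfsg.extendedTwoLayer ↥(Subgroup.centralizer ({y} : Set G))).map (Subgroup.centralizer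 ({y} : Set G)).subtype := by
  exact H4.s1346 L.zstar x y hx hxy

end Cfsg.Agent.S1346
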