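import Cfsg.Statements.S1348
import Cfsg.Agent.H8.SLBlock

set_option autoImplicit false
open Cfsg

namespace Cfsg.Agent.S1348

open Matrix Subgroup


/-- Let F be a finite field of odd order, n ≥ 7 odd, and t ∈ SL(n, F) the diagonal matrix with entries −1, …, −1, 1. Then E(C(t)) is a standard subgroup of SL(n, F). -/
theorem result {F : Type*} [Field F] [Fintype F] [DecidableEq F] (hF : Odd (Fintype.card F)) (n : ℕ) (hn : 7 ≤ n) (hodd : Odd n) (t : Matrix.SpecialLinearGroup (Fin n) F) (ht : (t : Matrix (Fin n) (Fin n) F) = Matrix.diagonal (fun i : Fin n => if (i : ℕ) + 1 = n then (1 : F) else -1)) : Cfsg.IsStandardSubgroup ((Cfsg.layer ↥(Subgroup.centralizer ({t} : Set (Matrix.SpecialLinearGroup (Fin n) F)))).map (Subgroup.centralizer ({t} : Set (Matrix.SpecialLinearGroup (Fin n) F))).subtype) := by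
  haveI : Fact (Nat.Prime 2) := ⟨Nat.prime_two⟩
  have hm := H8.neg_one_ne_one_of_odd hF
  let n0 : Fin n := ⟨n - 1, by omega⟩
  let e := H8.splitAt n0
  have hcard : Fintype.card {i // i ≠ n0} = n - 1 := by rw [H8.card_ne_subtype]; simp
  have hev : Even (n - 1) := by obtain ⟨k, rfl⟩ := hodd; simp
  have ht' : (t : Matrix (Fin n) (Fin n) F) = H8.blk e ((-1 : F) • 1) 1 := by
    rw [ht, H8.blk_splitAt]
    congr 1
    ext i
    have : (i : ℕ) + 1 = n ↔ i = n0 := by
      rw [Fin.ext_iff]; show _ ↔ (i : ℕ) = n - 1; omega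
    simp only [this]
  have hok : H8.SLOk {i // i ≠ n0} F := Or.inl (by omega)
  haveI := hok.nontrivial
  let f := H8.embSL (F := F) e
  have hf : Function.Injective f := H8.embSL_injective e
  have hK := H8.qs_range_of_injective f hf (H8.sl_quasisimple hok)
  set C := centralizer ({t} : Set (SpecialLinearGroup (Fin n) F)) with hC
  have hmem : ∀ g : SpecialLinearGroup (Fin n) F, g ∈ C →
      g.1 * H8.blk e ((-1 : F) • 1) 1 = H8.blk e ((-1 : F) • 1) 1 * g.1 := fun g hg => by
    have h0 : g * t = t * g := mem_centralizer_singleton_iff.mp hg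
    rw [← ht']; exact congrArg Subtype.val h0
  have htK : t ∈ centralizer (f.range : Set (SpecialLinearGroup (Fin n) F)) := by
    rintro _ ⟨B, rfl⟩
    apply Subtype.ext
    show H8.blk e B.1 (1 : F) * t.1 = t.1 * H8.blk e B.1 (1 : F)
    rw [ht', H8.blk_mul, H8.blk_mul]; simp
  have hKC : f.range ≤ C := fun x hx => mem_centralizer_singleton_iff.mpr (htK x hx)
  have hN : C ≤ normalizer (f.range : Set (SpecialLinearGroup (Fin n) F)) := by
    intro g hg
    apply H4.mem_normalizer_of_conjS_le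
    rintro _ ⟨_, ⟨B, rfl⟩, rfl⟩
    obtain ⟨B', hB'⟩ := H8.conj_blk e hm (congrArg Subtype.val (mul_inv_cancel g)) (hmem g hg)
      (hmem _ (inv_mem hg)) B
    exact ⟨B', Subtype.ext hB'.symm⟩
  have hc : H4.CompIn C f.range := ⟨H4.SN.of_normal hKC hN, hK⟩
  have hE : H4.layerIn C = f.range := by
    refine le_antisymm (H4.layerIn_le_iff.mpr fun L hL => ?_) hc.le_layerIn
    rw [← hL.perfect]
    refine (commutator_mono hL.le hL.le).trans (commutator_le.mpr fun a ha b hb => ?_)
    obtain ⟨A, x, hA⟩ := H8.exists_blk_of_commute e hm (hmem a ha)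
    obtain ⟨A', x', hA'⟩ := H8.exists_blk_of_commute e hm (hmem _ (inv_mem ha))
    obtain ⟨B, y, hB⟩ := H8.exists_blk_of_commute e hm (hmem b hb)
    obtain ⟨B', y', hB'⟩ := H8.exists_blk_of_commute e hm (hmem _ (inv_mem hb))
    have h1 : x * x' = 1 := by
      have : a.1 * (a⁻¹).1 = 1 := congrArg Subtype.val (mul_inv_cancel a)
      rw [hA, hA', H8.blk_mul, ← H8.blk_one e] at this
      exact (H8.blk_inj e this).2
    have h2 : y * y' = 1 := by
      have : b.1 * (b⁻¹).1 = 1 := congrArg Subtype.val (mul_inv_cancel b)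
      rw [hB, hB', H8.blk_mul, ← H8.blk_one e] at this
      exact (H8.blk_inj e this).2
    have h3 : (a * b * a⁻¹ * b⁻¹).1 = H8.blk e (A * B * A' * B') 1 := by
      show a.1 * b.1 * (a⁻¹).1 * (b⁻¹).1 = _
      rw [hA, hA', hB, hB', H8.blk_mul, H8.blk_mul, H8.blk_mul]
      congr 1
      linear_combination y * y' * h1 + h2
    have h4 : det (A * B * A' * B') = 1 := by
      have := (a * b * a⁻¹ * b⁻¹).2
      rwa [h3, H8.det_blk, mul_one] at this
    exact ⟨⟨_, h4⟩, Subtype.ext h3.symm⟩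
  have htK' : t ∈ f.range := by
    refine ⟨⟨(-1 : F) • 1, ?_⟩, Subtype.ext ht'.symm⟩
    rw [det_smul, hcard, det_one, hev.neg_one_pow, one_mul]
  have hCK : ∀ g ∈ centralizer (f.range : Set (SpecialLinearGroup (Fin n) F)),
      ∃ c d : F, g.1 = H8.blk e (c • 1) d := by
    intro g hg
    obtain ⟨A, d, hA⟩ := H8.exists_blk_of_commute e hm
      (hmem g (mem_centralizer_singleton_iff.mpr (hg t htK').symm))
    obtain ⟨c, hc⟩ := H8.scalar_of_commute (A := A) fun B => by
      have : H8.blk e B.1 (1 : F) * g.1 = g.1 * H8.blk e B.1 (1 : F) :=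
        congrArg Subtype.val (hg (f B) ⟨B, rfl⟩)
      rw [hA, H8.blk_mul, H8.blk_mul] at this
      exact (H8.blk_inj e this).1
    exact ⟨c, d, hc ▸ hA⟩
  obtain ⟨i⟩ : Nonempty {i // i ≠ n0} := inferInstance
  have huniq : ∀ s ∈ centralizer (f.range : Set (SpecialLinearGroup (Fin n) F)),
      orderOf s = 2 → s = t := by
    intro s hs h2
    obtain ⟨c, d, hcd⟩ := hCK s hs
    have h0 : s * s = 1 := H4.mul_self_eq_one_of_orderOf h2
    have h1 : s.1 * s.1 = 1 := congrArg Subtype.val h0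
    rw [hcd, H8.blk_mul, ← H8.blk_one e] at h1
    have h3 := congrFun (congrFun (H8.blk_inj e h1).1 i) i
    simp only [Matrix.smul_mul, Matrix.mul_smul, Matrix.one_mul, Matrix.smul_apply, one_apply_eq,
      smul_eq_mul, mul_one] at h3
    have h4 := s.2
    obtain ⟨k, hk⟩ := hev
    rw [hcd, H8.det_blk, det_smul, hcard, det_one, mul_one, hk, ← two_mul, pow_mul, pow_two, h3,
      one_pow, one_mul] at h4
    rcases mul_self_eq_one_iff.mp h3 with h5 | h5
    · exfalso
      apply H4.ne_one_of_orderOf h2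
      apply Subtype.ext
      rw [hcd, h4, h5, one_smul, H8.blk_one]; rfl
    · apply Subtype.ext
      rw [hcd, h4, h5, ht']
  have ht2 : orderOf t = 2 := by
    refine H4.orderOf_eq_two' (Subtype.ext ?_) fun h => ?_
    · show t.1 * t.1 = 1
      rw [ht', H8.blk_mul, ← H8.blk_one e]; simp
    · have : t.1 = 1 := congrArg Subtype.val h
      rw [ht', ← H8.blk_one e] at this
      have h3 := congrFun (congrFun (H8.blk_inj e this).1 i) i
      simp at h3
      exact hm h3
  show IsStandardSubgroup (H4.layerIn C)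
  rw [hE]
  refine H8.isStandard_of hK ht2 htK (fun s g hs h1 h2 => hN ?_) ?_
  · have e1 := huniq s h1 hs
    have e2 := huniq _ h2 (by rw [← hs]; exact (MulAut.conj g).orderOf_eq s)
    rw [e1] at e2
    exact mem_centralizer_singleton_iff.mpr (mul_inv_eq_iff_eq_mul.mp e2)
  · refine isSolvable_of_comm fun a b => Subtype.ext (Subtype.ext ?_)
    obtain ⟨c, d, h1⟩ := hCK a.1 a.2
    obtain ⟨c', d', h2⟩ := hCK b.1 b.2
    show a.1.1 * b.1.1 = b.1.1 * a.1.1
    rw [h1, h2, H8.blk_mul, H8.blk_mul]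
    simp [smul_smul, mul_comm]

end Cfsg.Agent.S1348
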