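import Cfsg.Statements.S1753
import Cfsg.Agent.H4.Layer

set_option autoImplicit false
universe u
open Cfsg

namespace Cfsg.Agent.S1753

/-- Let K be any property of groups. (1) If G is a minimal counterexample relative to K — a finite non-abelian simple group not satisfying K such that every finite non-abelian simple group of smaller order satisfies K — then every proper subgroup of G is a K-group (all its non-abelian simple sections satisfy K), since such sections have smaller order than G. (2) Consequently (induction on the order), if every finite non-abelian simple group all of whose proper subgroups are K-groups satisfies K, then every finite non-abelian simple group satisfies K. -/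
theorem result (K : ∀ (X : Type u) [Group X], Prop) :
    (∀ (G : Type u) [Group G], Cfsg.IsMinCounterexampleWith K G → Cfsg.IsKProperWith K G) ∧
      ((∀ (X : Type u) [Group X] [Finite X], IsSimpleGroup X → ¬ IsMulCommutative X → Cfsg.IsKProperWith K X → K X) →
        ∀ (G : Type u) [Group G] [Finite G], IsSimpleGroup G → ¬ IsMulCommutative G → K G) := by
  have key : ∀ (G : Type u) [Group G] [Finite G], (∀ (X : Type u) [Group X] [Finite X],
      IsSimpleGroup X → ¬ IsMulCommutative X → Nat.card X < Nat.card G → K X) →
      Cfsg.IsKProperWith K G := by
    intro G _ _ h H hH M N _ h1 h2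
    refine h _ h1 h2 (lt_of_le_of_lt (Nat.card_le_card_of_surjective _
      (QuotientGroup.mk'_surjective N)) (lt_of_le_of_lt M.card_le_card_group ?_))
    exact lt_of_le_of_ne H.card_le_card_group fun e => hH (H.eq_top_of_card_eq e)
  refine ⟨fun G _ h => ?_, fun h G _ _ => ?_⟩
  · have := h.1
    exact key G h.2.2.2.2
  · induction hn : Nat.card G using Nat.strong_induction_on generalizing G with
    | _ n ih =>
      intro h1 h2
      exact h G h1 h2 (key G fun X i1 i2 h3 h4 h5 => @ih _ (hn ▸ h5) X i1 i2 rfl h3 h4)

end Cfsg.Agent.S1753
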