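import Cfsg.Statements.S1754
import Cfsg.Agent.H4.Layer

set_option autoImplicit false
open Cfsg

namespace Cfsg.Agent.S1754

/-- Let A be a standard subgroup of the finite group G (A quasisimple, C_G(A) tightly embedded of even order, A commuting elementwise with no other conjugate of itself, and N_G(A) = N_G(C_G(A))), and let t be an involution of G centralizing A. Then the centralizer of t lies in the normalizer of A; in particular A, viewed inside C_G(t), is a component of C_G(t). -/
theorem result {G : Type*} [Group G] [Finite G]
    (A : Subgroup G) (hA : Cfsg.IsStandardSubgroup A) (t : G) (ht : orderOf t = 2) (htA : t ∈ Subgroup.centralizer (A : Set G)) :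
    Subgroup.centralizer ({t} : Set G) ≤ Subgroup.normalizer (A : Set G) ∧
      Cfsg.IsComponent (A.subgroupOf (Subgroup.centralizer ({t} : Set G))) := by
  open H4 Subgroup in
  have h1 : centralizer ({t} : Set G) ≤ normalizer (A : Set G) := by
    intro g hg
    rw [hA.2.2.2]
    by_contra hc
    have h2 := hA.2.1.2 g hc
    have h3 : t ∈ centralizer (A : Set G) ⊓ (centralizer (A : Set G)).map (MulAut.conj g).toMonoidHom := by
      refine ⟨htA, t, htA, ?_⟩
      have := mem_centralizer_singleton_iff.mp hg
      simp [this]
    have h4 := orderOf_dvd_natCard _ h3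
    rw [ht] at h4
    exact (Nat.not_even_iff_odd.mpr h2) (even_iff_two_dvd.mpr h4)
  refine ⟨h1, (compIn_iff.mp ⟨SN.of_normal ?_ h1, qs_iff.mpr hA.1⟩).2⟩
  intro a ha
  exact mem_centralizer_singleton_iff.mpr (htA a ha)

end Cfsg.Agent.S1754
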