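import Cfsg.Statements.S1755
import Cfsg.Agent.H7.Extraspecial2
import Cfsg.Agent.H9.Tools5

set_option autoImplicit false
open Cfsg

namespace Cfsg.Agent.S1755

/-- Let G be a finite group and let z be an involution of G such that Q, the generalized Fitting subgroup of the centralizer C of z, is a 2-group of symplectic type (every characteristic abelian subgroup of Q is cyclic). Let B be a characteristic abelian subgroup of Q, viewed as a subgroup of G. Then for every g in G, the conjugate of B by g either equals B or meets B trivially. -/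
theorem result {G : Type*} [Group G] [Finite G] (z : G) (hz : orderOf z = 2) (hQ : Cfsg.IsOfSymplecticType ↥(Cfsg.generalizedFittingSubgroup ↥(Subgroup.centralizer ({z} : Set G))))
    (B : Subgroup ↥(Cfsg.generalizedFittingSubgroup ↥(Subgroup.centralizer ({z} : Set G)))) (hBc : B.Characteristic) (hBa : IsMulCommutative ↥B) (g : G) :
    ((B.map (Cfsg.generalizedFittingSubgroup ↥(Subgroup.centralizer ({z} : Set G))).subtype).map (Subgroup.centralizer ({z} : Set G)).subtype).map (MulAut.conj g).toMonoidHom =
        (B.map (Cfsg.generalizedFittingSubgroup ↥(Subgroup.centralizer ({z} : Set G))).subtype).map (Subgroup.centralizer ({z} : Set G)).subtype ∨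
      ((B.map (Cfsg.generalizedFittingSubgroup ↥(Subgroup.centralizer ({z} : Set G))).subtype).map (Subgroup.centralizer ({z} : Set G)).subtype).map (MulAut.conj g).toMonoidHom ⊓
        (B.map (Cfsg.generalizedFittingSubgroup ↥(Subgroup.centralizer ({z} : Set G))).subtype).map (Subgroup.centralizer ({z} : Set G)).subtype = ⊥ := by
  have : Fact (Nat.Prime 2) := ⟨Nat.prime_two⟩
  let C := Subgroup.centralizer ({z} : Set G)
  let F := Cfsg.generalizedFittingSubgroup C
  set A := (B.map F.subtype).map C.subtype with hA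
  have hz1 : z ≠ 1 := by rintro rfl; simp at hz
  have hz2 : z ^ 2 = 1 := hz ▸ pow_orderOf_eq_one z
  have hBcy := hQ.2 B hBc hBa
  have : IsCyclic (B.map F.subtype) :=
    isCyclic_of_surjective _ (F.subtype.subgroupMap_surjective B)
  have hAcy : IsCyclic A := isCyclic_of_surjective _ (C.subtype.subgroupMap_surjective _)
  have hCA : C ≤ Subgroup.normalizer (A : Set G) := H4.le_normalizer_map_subtype _
  by_cases h : H4.conjS g A ⊓ A = ⊥
  · exact Or.inr h
  left
  have hB2 : IsPGroup 2 B := hQ.1.to_subgroup B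
  have hA2 : IsPGroup 2 A := (hB2.map _).map _
  have hzA : z ∈ A := by
    have hB : B ≠ ⊥ := by
      rintro rfl
      simp [hA] at h
    obtain ⟨w, hw, hw1, hwc, hw2⟩ := H7.exists_central_order_p hQ.1 hB
    have hZ := hQ.2 (Subgroup.center F) inferInstance inferInstance
    have hz' : (⟨_, H7.mem_gfit_centralizer z⟩ : F) ∈ Subgroup.zpowers w :=
      H7.mem_zpowers_of_isCyclic hwc hw1 hw2 (Subgroup.mem_center_iff.mpr fun q =>
        Subtype.ext (Subtype.ext (Subgroup.mem_centralizer_singleton_iff.mp q.1.2)))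
        (Subtype.ext (Subtype.ext hz2))
    exact ⟨_, ⟨_, Subgroup.zpowers_le.mpr hw hz', rfl⟩, rfl⟩
  have huniq : ∀ y ∈ A, y ≠ 1 → y ^ 2 = 1 → y = z := fun y hy hy1 hy2 =>
    ((H9.mem_zpowers_two hz).mp (H7.mem_zpowers_of_isCyclic hzA hz1 hz2 hy hy2)).resolve_left hy1
  obtain ⟨y, hy, hy1, hy2, -⟩ := H7.exists_fixed_order_p (hA2.to_le inf_le_right)
    (IsPGroup.of_bot (p := 2)) bot_le h
  have e1 := huniq y hy.2 hy1 hy2
  have e2 := huniq _ (H4.mem_conjS.mp hy.1) (by
    intro e; apply hy1; rw [← conj_eq_one_iff (a := g⁻¹), inv_inv, e]) (by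
    rw [← conj_eq_one_iff (a := g), ← conj_pow]; simpa [mul_assoc] using hy2)
  refine H4.mem_normalizer_iff_conjS.mp (hCA (Subgroup.mem_centralizer_singleton_iff.mpr ?_))
  conv_lhs => rw [← e2, e1]
  group

end Cfsg.Agent.S1755
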