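import Cfsg.Statements.S1775
import Cfsg.Agent.H4.Quot

set_option autoImplicit false
open Cfsg

namespace Cfsg.Agent.S1775

/-- Let G be a finite group whose generalized Fitting subgroup is a non-abelian simple group and in which every proper section (every quotient H/N of a proper subgroup H, or of G by a nontrivial normal subgroup) has the B-property. Let x, y be commuting involutions, let D be the intersection of the 2-layer of C_G(x) with C_G(y), and let J be a 2-component of D. Write Q for the quotient of C_G(y) by its largest normal odd-order subgroup. Then (i) the image of J in Q is a component of the centralizer in Q of the image of x; and (ii) for every J-invariant subgroup E of odd order of C_G(x) ∩ C_G(y), the commutator subgroup [J, E] lies in the largest normal odd-order subgroup of C_G(y). -/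
theorem result {G : Type*} [Group G] [Finite G]
    (hF : IsSimpleGroup ↥(Cfsg.generalizedFittingSubgroup G)) (hF' : ¬ IsMulCommutative ↥(Cfsg.generalizedFittingSubgroup G))
    (hsec : ∀ (H : Subgroup G) (N : Subgroup ↥H) [N.Normal], (H ≠ ⊤ ∨ N ≠ ⊥) → Cfsg.HasBProperty (↥H ⧸ N))
    (x y : G) (hx : orderOf x = 2) (hy : orderOf y = 2) (hxy : x * y = y * x)
    (J : Subgroup ↥((Cfsg.pLayer 2 ↥(Subgroup.centralizer ({x} : Set G))).map (Subgroup.centralizer ({x} : Set G)).subtype ⊓ Subgroup.centralizer ({y} : Set G)))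
    (hJ : Cfsg.IsPComponent 2 J) :
    Cfsg.IsComponent
        ((((J.map (Subgroup.subtype _)).subgroupOf (Subgroup.centralizer ({y} : Set G))).map (QuotientGroup.mk' (Cfsg.oddCore ↥(Subgroup.centralizer ({y} : Set G))))).subgroupOf
          (Subgroup.centralizer ({(QuotientGroup.mk' (Cfsg.oddCore ↥(Subgroup.centralizer ({y} : Set G))) ⟨x, Subgroup.mem_centralizer_singleton_iff.mpr hxy⟩ : ↥(Subgroup.centralizer ({y} : Set G)) ⧸ Cfsg.oddCore ↥(Subgroup.centralizer ({y} : Set G)))} : Set _))) ∧
      ∀ E : Subgroup G, E ≤ Subgroup.centralizer ({x} : Set G) ⊓ Subgroup.centralizer ({y} : Set G) → Odd (Nat.card ↥E) →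
        (∀ j ∈ J.map (Subgroup.subtype _), ∀ e ∈ E, j * e * j⁻¹ ∈ E) →
          ⁅J.map (Subgroup.subtype _), E⁆ ≤ (Cfsg.oddCore ↥(Subgroup.centralizer ({y} : Set G))).map (Subgroup.centralizer ({y} : Set G)).subtype := by
  open H4 Subgroup in
  let Cx := centralizer ({x} : Set G)
  let Cy := centralizer ({y} : Set G)
  let π := QuotientGroup.mk' (Cfsg.pPrimeCore 2 Cy)
  have hxy' : x ∈ Cy := Subgroup.mem_centralizer_singleton_iff.mpr hxy
  have hne : Cy ≠ ⊤ := by
    intro e
    have h1 : y ∈ center G := mem_center_of_centralizer_eq_top e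
    have h2 : center G ≤ Cfsg.generalizedFittingSubgroup G :=
      (center_le_centralizer' _).trans centralizer_gfit_le
    rcases hF.eq_bot_or_eq_top_of_normal ((center G).subgroupOf _) inferInstance with h3 | h3
    · have : (⟨y, h2 h1⟩ : Cfsg.generalizedFittingSubgroup G) ∈ (center G).subgroupOf _ := h1
      rw [h3, mem_bot] at this
      rw [show y = 1 from congrArg Subtype.val this, orderOf_one] at hy
      omega
    · refine hF' ⟨⟨fun a b => Subtype.ext ?_⟩⟩
      have : b ∈ (center G).subgroupOf _ := h3 ▸ mem_top b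
      exact mem_center_iff.mp this a
  have hB := hsec Cy (Cfsg.pPrimeCore 2 Cy) (Or.inl hne)
  have h1 : PCompIn 2 (Cx ⊓ Cy) (J.map (Subgroup.subtype _)) :=
    (pcompIn_map_subtype_iff.mpr hJ).trans ((sn_pLayerIn Cx).inf_right Cy)
  have h2 : Cx ⊓ Cy = (centralizer ({⟨x, hxy'⟩} : Set Cy)).map Cy.subtype := by
    rw [inf_comm]; exact inf_centralizer_singleton_eq_map (⟨x, hxy'⟩ : Cy)
  have hJy : J.map (Subgroup.subtype _) ≤ Cy := h1.le.trans inf_le_right
  have h3 : PCompIn 2 (centralizer ({⟨x, hxy'⟩} : Set Cy))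
      ((J.map (Subgroup.subtype _)).subgroupOf Cy) := by
    rw [← pcompIn_map_iff_of_injective Cy.subtype_injective, ← h2, map_subgroupOf_eq_of_le hJy]
    exact h1
  have hx' : orderOf (⟨x, hxy'⟩ : Cy) = 2 := by rw [← hx, ← orderOf_coe]
  have h4 : (centralizer ({⟨x, hxy'⟩} : Set Cy)).map π = centralizer {π ⟨x, hxy'⟩} :=
    map_centralizer_singleton' (QuotientGroup.mk'_surjective _) coprime_ker_mk' hx'
  have h5 := h3.map_of_coprime π (coprime_inf_ker_mk' _)
  rw [h4] at h5
  have h6 := (hB _ (orderOf_map_of_coprime π coprime_ker_mk' hx')).trans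
    (pPrimeCore_quotient_pPrimeCore 2 _).le
  rw [map_commutator, le_bot_iff] at h6
  have h7 : CompIn _ _ := ⟨h5.1, h5.qs_iff.mpr (commutator_eq_bot_mono h6 h5.le_pLayerIn le_rfl)⟩
  refine ⟨(compIn_iff.mp h7).2, fun E hE hodd hJE => ?_⟩
  have hEy : E ≤ Cy := hE.trans inf_le_right
  rw [← commutator_subgroupOf_le_iff hJy hEy]
  refine le_trans ?_ (QuotientGroup.ker_mk' (Cfsg.pPrimeCore 2 Cy)).le
  rw [← Subgroup.map_eq_bot_iff, map_commutator]
  refine (h7.le_or_commute_of_normalizer ?_ ?_).resolve_left (h5.2.not_le_of_coprime ?_)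
  · rw [← h4]
    refine map_mono ?_
    rw [← map_subtype_le_map_subtype, ← h2, map_subgroupOf_eq_of_le hEy]
    exact hE
  · refine (map_mono ?_).trans (le_normalizer_map π)
    exact le_normalizer_iff.mpr fun j hj e he => hJE j hj e he
  · refine coprime_card_map ?_ π
    rw [Nat.card_congr (subgroupOfEquivOfLe hEy).toEquiv]
    exact Nat.coprime_two_right.mpr hodd

end Cfsg.Agent.S1775
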