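import Cfsg.Statements.S1780
import Cfsg.Agent.H7.TI

set_option autoImplicit false
open Cfsg

namespace Cfsg.Agent.S1780

/-- Let A be a finite abelian 2-group and t an automorphism of A whose order is a power of 2. If every element of A fixed by t² is fixed by t, then t fixes every element of A. -/
theorem result {A : Type*} [CommGroup A] [Finite A]
    (hA : IsPGroup 2 A) (t : MulAut A) (ht : ∃ k : ℕ, orderOf t = 2 ^ k) (hC : ∀ a : A, t (t a) = a → t a = a) :
    ∀ a : A, t a = a := by
  have : Finite (A ⋊[MonoidHom.id (MulAut A)] MulAut A) :=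
    Finite.of_equiv _ SemidirectProduct.equivProd.symm
  have hi := SemidirectProduct.inl_injective (φ := MonoidHom.id (MulAut A))
  obtain ⟨k, hk⟩ := ht
  have key : ∀ (s : MulAut A) (a : A),
      (SemidirectProduct.inr s * SemidirectProduct.inl a : A ⋊[MonoidHom.id (MulAut A)] MulAut A) =
        SemidirectProduct.inl a * SemidirectProduct.inr s ↔ s a = a := by
    intro s a
    rw [← mul_inv_eq_iff_eq_mul, ← map_inv, ← SemidirectProduct.inl_aut]
    exact hi.eq_iff
  have h := H7.le_centralizer_of_sq (G := A ⋊[MonoidHom.id (MulAut A)] MulAut A)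
    (A := (⊤ : Subgroup A).map SemidirectProduct.inl)
    ((H7.isPGroup_top hA).map _) inferInstance (t := SemidirectProduct.inr t)
    (H7.isPGroup_zpowers_of_pow (k := k) (by rw [← map_pow, ← hk, pow_orderOf_eq_one, map_one]))
    (by
      rw [← MonoidHom.range_eq_map, SemidirectProduct.range_inl_eq_ker_rightHom]
      exact Subgroup.le_normalizer_of_normal (Subgroup.mem_top _))
    (by
      rintro _ ⟨a, -, rfl⟩ ha
      rw [← map_pow, key, pow_two] at ha
      exact (key t a).mpr (hC a ha))
  intro a
  exact (key t a).mp (Subgroup.mem_centralizer_singleton_iff.mp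
    (h (Subgroup.mem_map_of_mem _ (Subgroup.mem_top a)))).symm

end Cfsg.Agent.S1780
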