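import Cfsg.Statements.S1784
import Cfsg.Agent.H7.Extraspecial2

set_option autoImplicit false
open Cfsg

namespace Cfsg.Agent.S1784

/-- Let G be a finite group and let z be an involution of G such that Q, the generalized Fitting subgroup of the centralizer C of z, is a 2-group of symplectic type (every characteristic abelian subgroup of Q is cyclic); suppose Q is extraspecial, and view Q inside G. Let α be an involution of C that is not in Q, and let Q₀ be the subgroup of those q ∈ Q whose commutator with α lies in the subgroup generated by z. Then (a) the subgroup generated by the commutators α q α⁻¹ q⁻¹, q ∈ Q, equals the centre of Q₀; and (b) if Q₀ is not contained in the product of the centralizer of α in Q with the subgroup generated by z, then some element of Q conjugates α to α z. -/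
theorem result {G : Type*} [Group G] [Finite G] (z : G) (hz : orderOf z = 2) (hQ : Cfsg.IsOfSymplecticType ↥(Cfsg.generalizedFittingSubgroup ↥(Subgroup.centralizer ({z} : Set G)))) (hE : Cfsg.IsExtraspecial 2 ↥(Cfsg.generalizedFittingSubgroup ↥(Subgroup.centralizer ({z} : Set G))))
    (α : G) (hα : orderOf α = 2) (hαC : α ∈ Subgroup.centralizer ({z} : Set G)) (hαQ : α ∉ (Cfsg.generalizedFittingSubgroup ↥(Subgroup.centralizer ({z} : Set G))).map (Subgroup.centralizer ({z} : Set G)).subtype)
    (Q₀ : Subgroup G) (hQ₀ : ∀ q : G, q ∈ Q₀ ↔ (q ∈ (Cfsg.generalizedFittingSubgroup ↥(Subgroup.centralizer ({z} : Set G))).map (Subgroup.centralizer ({z} : Set G)).subtype ∧ α * q * α⁻¹ * q⁻¹ ∈ Subgroup.zpowers z)) :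
    Subgroup.closure ((fun q : G => α * q * α⁻¹ * q⁻¹) '' ((Cfsg.generalizedFittingSubgroup ↥(Subgroup.centralizer ({z} : Set G))).map (Subgroup.centralizer ({z} : Set G)).subtype : Set G)) = (Subgroup.center ↥Q₀).map Q₀.subtype ∧
      (¬ Q₀ ≤ ((Cfsg.generalizedFittingSubgroup ↥(Subgroup.centralizer ({z} : Set G))).map (Subgroup.centralizer ({z} : Set G)).subtype ⊓ Subgroup.centralizer ({α} : Set G)) ⊔ Subgroup.zpowers z →
        ∃ q ∈ (Cfsg.generalizedFittingSubgroup ↥(Subgroup.centralizer ({z} : Set G))).map (Subgroup.centralizer ({z} : Set G)).subtype, q * α * q⁻¹ = α * z) := by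
  have hz1 : z ≠ 1 := by rintro rfl; simp at hz
  have h := (H7.es_of_isExtraspecial hE (fun e => hz1 (congrArg Subtype.val e))
    (H7.mem_gfit_centralizer z)
    (fun q _ => Subtype.ext (Subgroup.mem_centralizer_singleton_iff.mp q.2))).map
      (Subgroup.subtype_injective _)
  have hα2 : α * α = 1 := by rw [← pow_two, ← hα, pow_orderOf_eq_one]
  refine ⟨?_, fun hn => ?_⟩
  · rw [H4.map_center_subtype]
    exact h.closure_commutators hα2 (H4.le_normalizer_gfitIn _ hαC)
      (Subgroup.mem_centralizer_singleton_iff.mp hαC)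
      (fun hc => hαQ (H4.inf_centralizer_gfitIn_le _ ⟨hαC, hc⟩)) hQ₀
  · obtain ⟨q, hq, hq'⟩ := SetLike.not_le_iff_exists.mp hn
    obtain ⟨hq1, hq2⟩ := (hQ₀ q).mp hq
    refine ⟨q, hq1, ?_⟩
    rcases h.mem_zpowers_iff.mp hq2 with e | e
    · refine absurd (Subgroup.mem_sup_left (Subgroup.mem_inf.mpr
        ⟨hq1, Subgroup.mem_centralizer_singleton_iff.mpr ?_⟩)) hq'
      rw [mul_inv_eq_one, mul_inv_eq_iff_eq_mul] at e
      exact e.symm
    · change α * q * α⁻¹ * q⁻¹ = z at e
      rw [← e, inv_eq_of_mul_eq_one_right hα2, ← mul_assoc, ← mul_assoc, ← mul_assoc, hα2, one_mul]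

end Cfsg.Agent.S1784
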