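import Cfsg.Statements.S1785
import Cfsg.Agent.H7.TI

set_option autoImplicit false
open Cfsg

namespace Cfsg.Agent.S1785

/-- Let X be a finite 2-group having a normal elementary abelian subgroup of order at least 32. Then (a) for any two elementary abelian subgroups A, B of X of order 8 there is a chain A = A₁, A₂, …, Aₙ = B of elementary abelian subgroups of order 8 in which consecutive members commute elementwise; and (b) every elementary abelian subgroup of X of order 4 is contained in an elementary abelian subgroup of order 8. -/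
theorem result {X : Type*} [Group X] [Finite X]
    (hX : IsPGroup 2 X) (E : Subgroup X) [E.Normal] (hE : Cfsg.IsElementaryAbelian 2 E) (hE32 : 32 ≤ Nat.card ↥E) :
    (∀ A B : Subgroup X, Cfsg.IsElementaryAbelian 2 A → Nat.card ↥A = 8 → Cfsg.IsElementaryAbelian 2 B → Nat.card ↥B = 8 →
        Relation.ReflTransGen
          (fun C D : Subgroup X => Cfsg.IsElementaryAbelian 2 C ∧ Nat.card ↥C = 8 ∧ Cfsg.IsElementaryAbelian 2 D ∧ Nat.card ↥D = 8 ∧ ⁅C, D⁆ = ⊥)
          A B) ∧
      (∀ V : Subgroup X, Cfsg.IsElementaryAbelian 2 V → Nat.card ↥V = 4 →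
        ∃ A : Subgroup X, V ≤ A ∧ Cfsg.IsElementaryAbelian 2 A ∧ Nat.card ↥A = 8) := by
  refine ⟨?_, fun V hV hVc => ?_⟩
  · set r := fun C D : Subgroup X => Cfsg.IsElementaryAbelian 2 C ∧ Nat.card ↥C = 8 ∧
      Cfsg.IsElementaryAbelian 2 D ∧ Nat.card ↥D = 8 ∧ ⁅C, D⁆ = ⊥ with hr
    have hsymm : ∀ C D, r C D → r D C := fun C D h =>
      ⟨h.2.2.1, h.2.2.2.1, h.1, h.2.1, Subgroup.commutator_comm C D ▸ h.2.2.2.2⟩
    have key : ∀ n : ℕ, ∀ A : Subgroup X, Cfsg.IsElementaryAbelian 2 A → Nat.card A = 8 →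
        8 - Nat.card (A ⊓ E : Subgroup X) = n →
        ∃ A' ≤ E, Nat.card A' = 8 ∧ Relation.ReflTransGen r A A' := by
      intro n
      induction n using Nat.strong_induction_on with
      | _ n ih =>
      intro A hA hAc hn
      by_cases hle : A ≤ E
      · exact ⟨A, hle, hAc, Relation.ReflTransGen.refl⟩
      obtain ⟨e, he, heA, heC⟩ := H7.exists_mem_centralizer_notMem hE hE32 hA hAc.le
      have hlt : A ⊓ E < A := lt_of_le_of_ne inf_le_left fun h => hle (inf_eq_left.mp h)
      obtain ⟨M, hM0, hM, -, hcM, -⟩ := H7.exists_maximal_of_lt (H6.EA.isPGroup hA) hlt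
      have heM : e ∈ Subgroup.centralizer (M : Set X) := H4.centralizer_anti hM.le heC
      have hze := Subgroup.zpowers_le.mpr heM
      have hB : Cfsg.IsElementaryAbelian 2 (M ⊔ Subgroup.zpowers e) := by
        rw [sup_comm]
        exact H6.EA.sup (H6.EA.zpowers (hE.2 e he)) (H6.EA.mono hA hM.le) hze
      have hBc : Nat.card (M ⊔ Subgroup.zpowers e : Subgroup X) = 8 := by
        rw [H7.card_sup_zpowers (p := 2) (Subgroup.centralizer_le_normalizer _ heM)
          (fun h => heA (hM.le h)) (hE.2 e he ▸ one_mem _), ← hcM, hAc]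
      have hlt2 : A ⊓ E < (M ⊔ Subgroup.zpowers e) ⊓ E :=
        lt_of_le_of_ne (le_inf (hM0.trans le_sup_left) inf_le_right) fun h => heA
          (show e ∈ A ⊓ E from h ▸ ⟨Subgroup.mem_sup_right (Subgroup.mem_zpowers e), he⟩).1
      have h1 := H7.card_lt_of_lt hlt2
      have h2 := Subgroup.card_le_of_le (inf_le_left (a := M ⊔ Subgroup.zpowers e) (b := E))
      obtain ⟨A', hA'E, hA'c, hrel⟩ := ih _ (by omega) _ hB hBc rfl
      refine ⟨A', hA'E, hA'c, Relation.ReflTransGen.head ⟨hA, hAc, hB, hBc, ?_⟩ hrel⟩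
      rw [Subgroup.commutator_comm, Subgroup.commutator_eq_bot_iff_le_centralizer]
      exact sup_le (hM.le.trans (H6.EA.le_centralizer hA)) (Subgroup.zpowers_le.mpr heC)
    intro A B hA hAc hB hBc
    obtain ⟨A', hA'E, hA'c, h1⟩ := key _ A hA hAc rfl
    obtain ⟨B', hB'E, hB'c, h2⟩ := key _ B hB hBc rfl
    refine h1.trans (Relation.ReflTransGen.head ⟨H6.EA.mono hE hA'E, hA'c, H6.EA.mono hE hB'E, hB'c,
      ?_⟩ (Relation.ReflTransGen.mono (fun C D h => hsymm D C h) _ _ h2.swap))
    exact H4.commutator_eq_bot_iff'.mpr fun a ha b hb => H6.EA.comm hE (hA'E ha) (hB'E hb)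
  · obtain ⟨e, he, heA, heC⟩ := H7.exists_mem_centralizer_notMem hE hE32 hV (by omega)
    refine ⟨V ⊔ Subgroup.zpowers e, le_sup_left, ?_, ?_⟩
    · rw [sup_comm]
      exact H6.EA.sup (H6.EA.zpowers (hE.2 e he)) hV (Subgroup.zpowers_le.mpr heC)
    · rw [H7.card_sup_zpowers (p := 2) (Subgroup.centralizer_le_normalizer _ heC)
        heA (hE.2 e he ▸ one_mem _), hVc]

end Cfsg.Agent.S1785
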