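import Cfsg.Statements.S1786
import Cfsg.Agent.TI.V3

set_option autoImplicit false
open Cfsg

namespace Cfsg.Agent.S1786

open Subgroup

/-- Let G be a finite group, V an elementary abelian 2-subgroup of G and M the normalizer of V; write Q for the largest normal 2-subgroup of M. Suppose (1) the generalized Fitting subgroup of M equals Q; (2) V is a maximal abelian normal subgroup of M; (3) every conjugate of V equals V or meets V trivially, and for some g ∈ G the conjugate V' = g V g⁻¹ is different from V and contained in Q. Let P be the centralizer of V in Q, W the subgroup generated by V and V', and H the subgroup generated by P and g P g⁻¹. Then: (a) V is contained in g Q g⁻¹; (b) every non-identity element of W lies in exactly one conjugate of V contained in W, H normalizes W, and H modulo the centralizer of W in H is isomorphic to the special linear group of dimension 2 over the field with |V| elements; (c) P = Q, and V equals the Frattini subgroup, the centre and the commutator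 subgroup of Q. -/
theorem result {G : Type*} [Group G] [Finite G] (V : Subgroup G)
    (hV : Cfsg.IsElementaryAbelian 2 V)
    (h1 : (Cfsg.generalizedFittingSubgroup ↥(Subgroup.normalizer (V : Set G))).map (Subgroup.normalizer (V : Set G)).subtype =
      (Cfsg.pCore 2 ↥(Subgroup.normalizer (V : Set G))).map (Subgroup.normalizer (V : Set G)).subtype)
    (h2 : ∀ A : Subgroup G, V ≤ A → A ≤ Subgroup.normalizer (V : Set G) → IsMulCommutative ↥A →
      (∀ m ∈ Subgroup.normalizer (V : Set G), ∀ a ∈ A, m * a * m⁻¹ ∈ A) → A = V)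
    (hti : ∀ x : G, V.map (MulAut.conj x).toMonoidHom = V ∨ V.map (MulAut.conj x).toMonoidHom ⊓ V = ⊥)
    (g : G) (hg : V.map (MulAut.conj g).toMonoidHom ≠ V)
    (hgQ : V.map (MulAut.conj g).toMonoidHom ≤ (Cfsg.pCore 2 ↥(Subgroup.normalizer (V : Set G))).map (Subgroup.normalizer (V : Set G)).subtype) :
    let Q : Subgroup G := (Cfsg.pCore 2 ↥(Subgroup.normalizer (V : Set G))).map (Subgroup.normalizer (V : Set G)).subtype
    let P : Subgroup G := Q ⊓ Subgroup.centralizer (V : Set G)
    let W : Subgroup G := V ⊔ V.map (MulAut.conj g).toMonoidHom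
    let H : Subgroup G := P ⊔ P.map (MulAut.conj g).toMonoidHom
    V ≤ Q.map (MulAut.conj g).toMonoidHom ∧
      (∀ w ∈ W, w ≠ 1 → ∃! U : Subgroup G, (∃ x : G, U = V.map (MulAut.conj x).toMonoidHom) ∧ U ≤ W ∧ w ∈ U) ∧
      H ≤ Subgroup.normalizer (W : Set G) ∧
      (∀ hN : ((Subgroup.centralizer (W : Set G)).subgroupOf H).Normal, ∃ (F : Type) (_ : Field F) (_ : Fintype F), Fintype.card F = Nat.card ↥V ∧
        Nonempty (↥H ⧸ (Subgroup.centralizer (W : Set G)).subgroupOf H ≃* Matrix.SpecialLinearGroup (Fin 2) F)) ∧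
      P = Q ∧ (frattini ↥Q).map Q.subtype = V ∧ (Subgroup.center ↥Q).map Q.subtype = V ∧ (commutator ↥Q).map Q.subtype = V := by
  intro Q P W H
  have tv : TI.TV V := ⟨fun v hv => by rw [← pow_two, hV.2 v hv], fun e => hg (by simp [e]),
    by have := H4.inf_centralizer_gfitIn_le (normalizer (V : Set G)); rwa [H4.gfitIn, h1] at this,
    fun A a1 a2 a3 a4 => (h2 A a1 a2 (H5.isMulCommutative_of_forall a3)
      fun m hm a ha => GW.cmem (a4 hm) ha).le, hti⟩
  have h : TI.Pr V (H4.conjS g V) := ⟨tv, ⟨g, rfl⟩, hg, le_inf hgQ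
    (tv.cen_of_nor hg (hgQ.trans (map_subtype_le _)))⟩
  have e : TI.Pv V = Q := h.P_eq
  have eH : H = TI.Pv V ⊔ TI.Pv (H4.conjS g V) := congrArg (TI.Pv V ⊔ ·) (TI.conj_Pv g V)
  have hc : ⁅Q, Q⁆ = V := by
    refine le_antisymm (commutator_le.mpr fun x hx y hy => tv.cm (e.ge hx) (e.ge hy)) fun v hv => ?_
    obtain ⟨u, hu, u1⟩ := h.tv'.ex
    obtain ⟨x, hx, e1⟩ := h.surjP hu u1 hv
    exact H5.mem_of_eq (commutator_mem_commutator (e.le hx) (e.le (h.le hu)))
      (by rw [commutatorElement_def, e1, mul_inv_cancel_right])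
  refine ⟨h.symm.le.trans (inf_le_left.trans (TI.conj_Qv g V).ge), fun w hw w1 => ?_,
    eH ▸ h.nH, ?_, e, le_antisymm ?_ ?_, le_antisymm ?_ fun v hv => ?_,
    (map_subtype_commutator Q).trans hc⟩
  · obtain ⟨U, ⟨x, rfl⟩, hU, hw'⟩ : ∃ U : Subgroup G, (∃ x, U = H4.conjS x V) ∧ U ≤ W ∧ w ∈ U := by
      by_cases c : w ∈ V
      · exact ⟨V, ⟨1, (H4.conjS_one V).symm⟩, le_sup_left, c⟩
      obtain ⟨x, hx, e1⟩ := h.spread hw c
      exact ⟨_, ⟨x * g, H4.conjS_conjS _ _ _⟩, (H4.conjS_mono x le_sup_right).trans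
        (H4.mem_normalizer_iff_conjS.mp (h.nW hx)).le, e1⟩
    refine ⟨_, ⟨⟨x, rfl⟩, hU, hw'⟩, ?_⟩
    rintro _ ⟨⟨y, rfl⟩, -, hy⟩
    have := (tv.conj x).ti (y * x⁻¹)
    rw [H4.conjS_conjS, inv_mul_cancel_right] at this
    exact this.resolve_right fun e => w1 (e.le ⟨hy, hw'⟩)
  · clear_value H
    subst eH
    exact fun hN => h.sl2 (QuotientGroup.ker_mk' _) (QuotientGroup.mk'_surjective _)
  · have n : (V.subgroupOf Q).Normal := (normal_subgroupOf_iff_le_normalizer_inf).mpr
      (by rw [inf_eq_left.mpr (e ▸ tv.le_P)]; exact map_subtype_le _)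
    have := frattini_le_comap_frattini_of_surjective (QuotientGroup.mk'_surjective (V.subgroupOf Q))
    rw [show frattini (Q ⧸ V.subgroupOf Q) = ⊥ by
      by_contra c
      obtain ⟨a, ha⟩ := H7.exists_sq_ne_one_of_frattini c
      obtain ⟨a, rfl⟩ := QuotientGroup.mk_surjective a
      exact ha (by
        rw [← QuotientGroup.mk_pow, QuotientGroup.eq_one_iff, pow_two]
        exact tv.sqP (e.ge a.2)), MonoidHom.comap_bot, QuotientGroup.ker_mk'] at this
    exact map_le_iff_le_comap.mpr this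
  · exact hc.ge.trans (le_sup_left.trans
      (H6.phiS_le_frattini_map (p := 2) (H4.isPGroup_pCoreIn 2 _)))
  · rintro _ ⟨z, hz, rfl⟩
    exact tv.ZP (e.ge z.2) fun x hx =>
      (congrArg Subtype.val (mem_center_iff.mp hz ⟨x, e.le hx⟩)).symm
  · exact ⟨⟨v, e.le (tv.le_P hv)⟩, mem_center_iff.mpr fun x => Subtype.ext (TI.pc (e.ge x.2) hv), rfl⟩

end Cfsg.Agent.S1786
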