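import Cfsg.Statements.S3110
import Cfsg.Agent.H5.SS7
import Cfsg.Agent.FT.PF14

set_option autoImplicit false
open Cfsg

namespace Cfsg.Agent.S3110

/-- Let G be a finite group in which every 2-local subgroup is 2-constrained and some Sylow 2-subgroup has a self-centralizing abelian normal subgroup of 2-rank at least 3, and let S be any Sylow 2-subgroup of G. Then there is a subgroup W of G of odd order such that, for every subgroup B of S of 2-rank at least 2, W is generated by the largest normal odd-order subgroups O(C_G(b)) of the centralizers of the non-identity elements b of B, and W is normalized by the normalizer of every such B. -/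
theorem result {G : Type*} [Group G] [Finite G]
    (h2c : ∀ T : Subgroup G, IsPGroup 2 T → T ≠ ⊥ → Cfsg.IsPConstrained 2 ↥(Subgroup.normalizer (T : Set G)))
    (S : Sylow 2 G) (A : Subgroup ↥(S : Subgroup G)) (hAn : A.Normal) (hAab : IsMulCommutative ↥A)
    (hAC : Subgroup.centralizer (A : Set ↥(S : Subgroup G)) = A) (hA3 : ¬ Cfsg.PRankLE 2 2 ↥A) (S' : Sylow 2 G) :
    ∃ W : Subgroup G, Odd (Nat.card ↥W) ∧
      ∀ B : Subgroup G, B ≤ (S' : Subgroup G) → ¬ Cfsg.PRankLE 2 1 ↥B →
        W = (⨆ b : {b : G // b ∈ B ∧ b ≠ 1}, Cfsg.centralizerPPrimeCore 2 (b : G)) ∧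
        Subgroup.normalizer (B : Set G) ≤ Subgroup.normalizer (W : Set G) := by
  obtain ⟨V, hVS, hn, hV, h3⟩ := H5.SS.exists_normal_elem S A hAn hAab hA3 S'
  have hcon : ∀ b : G, orderOf b = 2 → IsPConstrained 2 (FT.Cen1 b) := fun b hb => by
    rw [← H5.SS.nor_zpowers_eq hb]
    exact h2c _ (H4.isPGroup_zpowers_of_orderOf hb)
      (by rw [Ne, Subgroup.zpowers_eq_bot]; exact H4.ne_one_of_orderOf hb)
  have hsig : ∀ X : Subgroup G, X ≤ S' → IsElementaryAbelian 2 X → 2 ^ 3 ≤ Nat.card X →
      IsSolvableSignalizerFunctor 2 X (centralizerPPrimeCore 2) ∧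
        H5.SS.Compl 2 X (centralizerPPrimeCore 2) := fun X hX hXe hX3 => by
    have := H5.SS.core_sig hXe (fun a _ _ => FT.ftThm _
      (H4.coprime_card_pPrimeCoreIn 2 _).odd_of_right) fun a ha _ b hb hb1 =>
        H5.SS.core_balance (hcon b (H5.orderOf_eq_of_elem hXe hb hb1))
          ((H5.isPGroup_of_elem hXe).to_le (Subgroup.zpowers_le.mpr ha))
          (H5.le_centralizer_singleton_of_comm hXe.1 hb ha)
    exact ⟨this, H5.SS.ssft_two hXe hX3 this⟩
  have hS := S'.isPGroup'
  refine ⟨signalizerClosure V (centralizerPPrimeCore 2), Nat.not_even_iff_odd.mp fun h =>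
    H5.fam_not_dvd ((hsig V hVS hV h3).2.closure_mem (hsig V hVS hV h3).1) (even_iff_two_dvd.mp h),
    fun B hB hB2 => ?_⟩
  obtain ⟨E, hE, hEe, h2⟩ := H7.not_prankLE_iff.mp hB2
  have e : signalizerClosure V (centralizerPPrimeCore 2) =
      signalizerClosure B (centralizerPPrimeCore 2) := by
    refine le_antisymm ?_ (H5.SS.closure_le' fun b hb hb1 => ?_)
    · rw [← H5.SS.closure_eq_of_normal hsig hS hVS hn hV h3 (hE.trans hB) hEe h2]
      exact H5.SS.closure_mono' hE
    · have hz : IsPGroup 2 (Subgroup.zpowers b) := hS.to_le (Subgroup.zpowers_le.mpr (hB hb))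
      obtain ⟨t, ht, ht1, ht2, -⟩ := H7.exists_fixed_order_p hz hz Subgroup.le_normalizer
        (by rwa [Ne, Subgroup.zpowers_eq_bot])
      have ho : orderOf t = 2 := orderOf_eq_prime ht2 ht1
      obtain ⟨F, hF, hFe, hF2, htF⟩ := H5.SS.exists_four_mem hS (hE.trans hB) hEe h2
        (Subgroup.zpowers_le.mpr (hB hb) ht) ho
      rw [← H5.SS.closure_eq_of_normal hsig hS hVS hn hV h3 hF hFe hF2]
      refine le_trans ?_ (H5.SS.le_closure' htF ht1)
      have hle := FT.cen1_le_cen1 ht
      exact (le_inf le_rfl ((H4.pPrimeCoreIn_le 2 _).trans hle)).trans (H5.SS.core_balance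
        (hcon t ho) hz (hle (FT.mem_cen1_iff.mpr rfl)))
  refine ⟨e, fun g hg => ?_⟩
  rw [e, H4.mem_normalizer_iff_conjS, H5.SS.conjS_closure fun a _ _ => H5.SS.core_conj 2 g a,
    H4.mem_normalizer_iff_conjS.mp hg]

end Cfsg.Agent.S3110
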