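import Cfsg.Statements.S3116
import Cfsg.Agent.H2.Aut2

set_option autoImplicit false
open Cfsg

namespace Cfsg.Agent.S3116

/-- The automorphism group of a dihedral 2-group of order at least 8, or of a quasi-dihedral (semidihedral) 2-group of order at least 16, is a 2-group. -/
theorem result {X : Type*} [Group X] [Finite X] (h2 : IsPGroup 2 X)
    (h : (∃ n : ℕ, 4 ≤ n ∧ Nonempty (X ≃* DihedralGroup n)) ∨ Cfsg.IsQuasiDihedral X) : IsPGroup 2 (MulAut X) := by
  exact H2.aut_dihedral_or_semidihedral h2 h

end Cfsg.Agent.S3116
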